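import Cfsg.Agent.Lib.G2.Rel
import Cfsg.Agent.Lib.Hay.BN

/-!
Double cosets of a parabolic subgroup of `G₂`.
-/

set_option autoImplicit false

namespace Cfsg.Lib.G2

open Cfsg.Lie Cfsg.Lib.Hay Subgroup Pointwise

variable (F : Type*) [Field F]

/-- root elements -/
def gens (S : List (Fin 12)) : Set (GL Ix F) := {g | ∃ r ∈ S, ∃ t, g = x r t}

/-- torus -/
def tor : Set (GL Ix F) := {g | ∃ l m, g = H l m}

/-- Borel subgroup -/
def BB : Subgroup (GL Ix F) := closure (gens F [6, 7, 8, 9, 10, 11] ∪ tor F)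

/-- unipotent radical -/
def QQ : Subgroup (GL Ix F) := closure (gens F [6, 8, 9, 10, 11])

/-- Levi complement -/
def MM : Subgroup (GL Ix F) := closure ({n 7} ∪ (gens F [7] ∪ tor F))

variable {F}

/-- Weyl words -/
def wd (L : List (Fin 12)) : GL Ix F := (L.map n).prod

/-- action of Weyl words -/
def act (L : List (Fin 12)) (s : Fin 12) : Fin 12 := L.foldr (fun k s => (wt k s).1) s

theorem wt_sq (r s : Fin 12) (t : F) : (wt r s).2 * ((wt r s).2 * t) = t := by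
  rcases (by decide : ∀ r s, (wt r s).2 = 1 ∨ (wt r s).2 = -1) r s with h | h <;> simp [h]

theorem wd_x {L : List (Fin 12)} (hL : ∀ k ∈ L, k ∈ [7, 6, 11]) (s : Fin 12) (t : F) :
    ∃ t', wd L * x s t' = x (act L s) t * wd L := by
  induction L generalizing t with
  | nil => exact ⟨t, by simp [wd, act]⟩
  | cons k L ih =>
    obtain ⟨t', h⟩ := ih (fun k h => hL k (by simp [h])) ((wt k (act L s)).2 * t)
    refine ⟨t', (mul_assoc (n k) (wd L) _).trans ?_⟩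
    rw [h, ← mul_assoc, n_x (hL k (by simp)), wt_sq, mul_assoc]; rfl

theorem x_mem {S : List (Fin 12)} {r : Fin 12} (h : r ∈ S) (t : F) : x r t ∈ gens F S := ⟨r, h, t, rfl⟩

theorem x_B {r : Fin 12} (h : r ∈ [6, 7, 8, 9, 10, 11]) (t : F) : x r t ∈ BB F := subset_closure (Or.inl (x_mem h t))

theorem H_B (l m : Fˣ) : H l m ∈ BB F := subset_closure (Or.inr ⟨l, m, rfl⟩)

theorem n_H' {r : Fin 12} (hr : r ∈ [7, 6]) (l m : Fˣ) : ∃ l' m', n r * H l m = H l' m' * n r := by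
  simp only [List.mem_cons, List.not_mem_nil, or_false] at hr
  rcases hr with rfl | rfl
  exacts [⟨_, _, (n_H l m).1⟩, ⟨_, _, (n_H l m).2.1⟩]

theorem tab : ∀ r ∈ [7, 6], r ∈ [7, 6, 11] ∧ r ∈ [6, 7, 8, 9, 10, 11] ∧ ∀ s ∈ [6, 7, 8, 9, 10, 11], s ≠ r →
    (∀ k ∈ cm r s, (wt r k.1).1 ∈ [6, 7, 8, 9, 10, 11]) ∧ (wt r s).1 ∈ [6, 7, 8, 9, 10, 11] ∧ 6 ≤ r ∧ 6 ≤ s := by
  decide

theorem bn_step {r : Fin 12} (hr : r ∈ [7, 6]) {Y : Type*} [MulAction (GL Ix F) Y] {o : Y}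
    (ho : ∀ t : F, x r t • o = o) : (∀ b ∈ BB F, ∃ b' ∈ BB F, (n r : GL Ix F) • b • o = b' • (n r : GL Ix F) • o) ∧
      ∀ b ∈ BB F, ∃ b' ∈ BB F, (n r : GL Ix F) • b • (n r : GL Ix F) • o = b' • o ∨
        (n r : GL Ix F) • b • (n r : GL Ix F) • o = b' • (n r : GL Ix F) • o := by
  obtain ⟨hr', hs', tb⟩ := tab r hr
  refine bn (BB F) (n r) (gens F [r]) (fun b hb => ?_) ?_ (by rintro _ ⟨s, hs, t, rfl⟩; simp_all)
  · have k : ∀ y ∈ gens F [6, 7, 8, 9, 10, 11] ∪ tor F, ∀ t, ∃ b ∈ BB F, ∃ t', n r * x r t * y = b * n r * x r t' := by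
      rintro _ (⟨s, hs, u, rfl⟩ | ⟨l, m, rfl⟩) t
      · by_cases e : s = r
        · exact ⟨1, one_mem _, t + u, by rw [e, x_add, one_mul, mul_assoc]⟩
        have : ∀ L : List (Fin 12 × ℤ × ℕ × ℕ), (∀ k ∈ L, (wt r k.1).1 ∈ [6, 7, 8, 9, 10, 11]) → ∃ b ∈ BB F,
            n r * (L.map fun k => x k.1 (k.2.1 * (t ^ k.2.2.1 * u ^ k.2.2.2))).prod = b * n r := fun L hL => by
          induction L with
          | nil => exact ⟨1, one_mem _, by simp⟩
          | cons k L ih =>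
            obtain ⟨b, hb, e⟩ := ih fun k h => hL k (by simp [h])
            exact ⟨_, mul_mem (x_B (hL k (by simp)) _) hb, by
              rw [List.map_cons, List.prod_cons, ← mul_assoc, n_x hr', mul_assoc, e, mul_assoc]⟩
        obtain ⟨b, hb, e'⟩ := this (cm r s) (tb s hs e).1
        exact ⟨_, mul_mem (x_B (tb s hs e).2.1 _) hb, t, by
          rw [mul_assoc, x_x (Or.inl (tb s hs e).2.2), ← mul_assoc, ← mul_assoc, n_x hr',
            mul_assoc _ (n r), e', ← mul_assoc]⟩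
      · obtain ⟨l', m', e⟩ := n_H' hr l m
        refine ⟨_, H_B l' m', ((l ^ (cf (.inr r)).1 * m ^ (cf (.inr r)).2)⁻¹ : Fˣ) * t, ?_⟩
        rw [← e, mul_assoc (n r), mul_assoc (n r), H_x, Units.mul_inv_cancel_left]
    have k' : ∀ b y, y ∈ gens F [6, 7, 8, 9, 10, 11] ∪ tor F → (∃ b' ∈ BB F, ∃ x ∈ gens F [r], n r * b = b' * n r * x) →
        ∃ b' ∈ BB F, ∃ x ∈ gens F [r], n r * (b * y) = b' * n r * x := by
      rintro b y hy ⟨b', h, _, ⟨s, hs, t, rfl⟩, e⟩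
      obtain rfl : s = r := by simpa using hs
      obtain ⟨b'', h', t', e'⟩ := k y hy t
      exact ⟨_, mul_mem h h', _, x_mem hs t', by rw [← mul_assoc, e, mul_assoc b', mul_assoc b', e']; group⟩
    induction hb using closure_induction_right with
    | one => exact ⟨1, one_mem _, _, x_mem (List.mem_singleton_self r) 0, by simp [x_zero]⟩
    | mul_right b _ y hy ih => exact k' b y hy ih
    | mul_inv_cancel b _ y hy ih =>
      refine k' b _ ?_ ih
      rcases hy with ⟨s, hs, u, rfl⟩ | ⟨l, m, rfl⟩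
      exacts [Or.inl ⟨s, hs, _, x_inv ..⟩, Or.inr ⟨_, _, H_inv ..⟩]
  · rintro _ ⟨s, hs, t, rfl⟩
    obtain rfl : s = r := by simpa using hs
    by_cases h : t = 0
    · rw [h, x_zero, mul_one]
      simp only [List.mem_cons, List.not_mem_nil, or_false] at hr
      rcases hr with rfl | rfl
      exacts [Or.inl (by rw [n_n.1]; exact H_B _ _), Or.inl (by rw [n_n.2.1]; exact H_B _ _)]
    · lift t to Fˣ using Ne.isUnit h
      obtain ⟨a, b, e⟩ : ∃ a b : ℤ, (s, a, b) ∈ [(7, 2, -3), (6, -1, 2), (11, 0, 1)] := by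
        simp only [List.mem_cons, List.not_mem_nil, or_false] at hr
        rcases hr with rfl | rfl <;> simp
      exact Or.inr ⟨_, x_B hs' _, _, mul_mem (H_B _ _) (x_B hs' _), (n_x_n e t).1.trans (mul_assoc ..)⟩

theorem B_le : BB F ≤ MM F ⊔ QQ F := (closure_le _).2 (by
  rintro _ (⟨s, hs, t, rfl⟩ | h)
  · by_cases e : s = 7
    · exact mem_sup_left (subset_closure (Or.inr (Or.inl (x_mem (by simp [e]) t))))
    · exact mem_sup_right (subset_closure (x_mem (by revert s; decide) t))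
  · exact mem_sup_left (subset_closure (Or.inr (Or.inr h))))

theorem cover [Finite F] {g : GL Ix F} (hg : g ∈ chevG2.group F) : ∃ b ∈ BB F, ∃ L ∈ [[], [6], [7, 6], [6, 7, 6],
    [7, 6, 7, 6], [6, 7, 6, 7, 6]], ∃ p ∈ MM F ⊔ QQ F, g = b * wd L * p := by
  let D : Set (GL Ix F ⧸ (MM F ⊔ QQ F)) := {y | ∃ b ∈ BB F, ∃ L ∈ [[], [6], [7, 6], [6, 7, 6], [7, 6, 7, 6],
    [6, 7, 6, 7, 6]], y = b • ((wd L : GL Ix F) : GL Ix F ⧸ (MM F ⊔ QQ F))}
  have S : ∀ g, g ∈ MulAction.stabilizer (GL Ix F) D ↔ ∀ y ∈ D, g • y ∈ D := fun g =>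
    MulAction.mem_stabilizer_set' (Set.toFinite D)
  have SB : BB F ≤ MulAction.stabilizer _ D := fun g hg => (S g).2 (by
    rintro _ ⟨b, hb, L, hL, rfl⟩
    exact ⟨g * b, mul_mem hg hb, L, hL, (mul_smul ..).symm⟩)
  have st : ∀ (L : List (Fin 12)) (s : Fin 12), (∀ k ∈ L, k ∈ [7, 6, 11]) ∧ s ∈ [6, 7, 8, 9, 10, 11] ∧
      act L s ∈ [7, 6] → (((wd L : GL Ix F) : GL Ix F ⧸ (MM F ⊔ QQ F)) ∈ D → ((wd (act L s :: L) : GL Ix F) :
        GL Ix F ⧸ (MM F ⊔ QQ F)) ∈ D → ∀ b ∈ BB F, (n (act L s) : GL Ix F) • b • ((wd L : GL Ix F) :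
        GL Ix F ⧸ (MM F ⊔ QQ F)) ∈ D ∧ (n (act L s) : GL Ix F) • b • ((wd (act L s :: L) : GL Ix F) :
        GL Ix F ⧸ (MM F ⊔ QQ F)) ∈ D) := fun L s ⟨h1, h2, h3⟩ d1 d2 b hb => by
    obtain ⟨k1, k2⟩ := bn_step h3 (o := ((wd L : GL Ix F) : GL Ix F ⧸ (MM F ⊔ QQ F))) fun t : F => by
      obtain ⟨t', e⟩ := wd_x h1 s t
      rw [MulAction.Quotient.smul_coe, smul_eq_mul, ← e]
      exact QuotientGroup.mk_mul_of_mem _ (B_le (x_B h2 _))
    obtain ⟨b1, hb1, e1⟩ := k1 b hb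
    obtain ⟨b2, hb2, e2⟩ := k2 b hb
    refine ⟨e1 ▸ (S _).1 (SB hb1) _ d2, ?_⟩
    rcases e2 with e2 | e2
    exacts [e2 ▸ (S _).1 (SB hb2) _ d1, e2 ▸ (S _).1 (SB hb2) _ d2]
  have d : ∀ L ∈ [[], [6], [7, 6], [6, 7, 6], [7, 6, 7, 6], [6, 7, 6, 7, 6]],
      ((wd L : GL Ix F) : GL Ix F ⧸ (MM F ⊔ QQ F)) ∈ D := fun L hL => ⟨1, one_mem _, L, hL, (one_smul ..).symm⟩
  have n7 : n 7 ∈ MM F ⊔ QQ F := mem_sup_left (subset_closure (Or.inl rfl))
  have S6 : n 6 ∈ MulAction.stabilizer (GL Ix F) D := (S _).2 (by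
    rintro _ ⟨b, hb, L, hL, rfl⟩
    have a1 := st [] 6 (by decide) (d _ (by decide)) (d _ (by decide)) b hb
    have a2 := st [7, 6] 11 (by decide) (d _ (by decide)) (d _ (by decide)) b hb
    have a3 := st [7, 6, 7, 6] 10 (by decide) (d _ (by decide)) (d _ (by decide)) b hb
    simp only [List.mem_cons, List.not_mem_nil, or_false] at hL
    rcases hL with rfl | rfl | rfl | rfl | rfl | rfl
    exacts [a1.1, a1.2, a2.1, a2.2, a3.1, a3.2])
  have S7 : n 7 ∈ MulAction.stabilizer (GL Ix F) D := (S _).2 (by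
    rintro _ ⟨b, hb, L, hL, rfl⟩
    have a1 := st [] 7 (by decide) (d _ (by decide)) (by
      convert d [] (by decide) using 1
      exact QuotientGroup.eq.2 (by simpa [wd, act] using n7)) b hb
    have a2 := st [6] 8 (by decide) (d _ (by decide)) (d _ (by decide)) b hb
    have a3 := st [6, 7, 6] 9 (by decide) (d _ (by decide)) (d _ (by decide)) b hb
    have a4 := st [6, 7, 6, 7, 6] 7 (by decide) (d _ (by decide)) (by
      convert d [6, 7, 6, 7, 6] (by decide) using 1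
      rw [show (wd (act [6, 7, 6, 7, 6] 7 :: [6, 7, 6, 7, 6]) : GL Ix F) = wd [6, 7, 6, 7, 6] * n 7 by
        simpa [wd, mul_assoc, show act [6, 7, 6, 7, 6] 7 = 7 by decide] using braid]
      exact QuotientGroup.mk_mul_of_mem _ n7) b hb
    simp only [List.mem_cons, List.not_mem_nil, or_false] at hL
    rcases hL with rfl | rfl | rfl | rfl | rfl | rfl
    exacts [a1.1, a2.1, a2.2, a3.1, a3.2, a4.1])
  have : g ∈ MulAction.stabilizer (GL Ix F) D := (closure_le _).2 (by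
    rintro g ⟨r, t, e⟩
    obtain rfl : g = x r t := Units.ext e
    obtain ⟨L, -, h1, s, h2, rfl⟩ := (by decide : ∀ r, ∃ L ∈ [[], [7], [6], [6, 7], [7, 6], [7, 6, 7], [6, 7, 6]],
      (∀ k ∈ L, k = 7 ∨ k = 6) ∧ ∃ s ∈ [6, 7, 8, 9, 10, 11], act L s = r) r
    obtain ⟨t', e⟩ := wd_x (L := L) (fun k hk => by rcases h1 k hk with rfl | rfl <;> simp) s t
    have : wd L ∈ MulAction.stabilizer (GL Ix F) D := list_prod_mem (by
      simp only [List.forall_mem_map]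
      intro k hk; rcases h1 k hk with rfl | rfl <;> assumption)
    exact (mul_mem_cancel_right this).1 (e ▸ mul_mem this (SB (x_B h2 _)))) hg
  obtain ⟨b, hb, L, hL, e⟩ := (S g).1 this _ (d [] (by decide))
  exact ⟨b, hb, L, hL, _, QuotientGroup.eq.1 e.symm, by simp [wd, mul_assoc]⟩

end Cfsg.Lib.G2
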