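import Cfsg.Agent.Lib.G2.BN

/-!
The centralizer of an involution in `G₂(q)`, `q` odd.
-/

set_option autoImplicit false

namespace Cfsg.Lib.G2

open Cfsg.Lie Cfsg.Lib.Hay Subgroup Pointwise

theorem cl_two {G : Type*} [Group G] (S : Set G) (Z : Subgroup G) {j : G} (p : ℕ) (hj : j ∈ normalizer (Z : Set G))
    (h1 : S ⊆ normalizer (Z : Set G)) (h2 : ∀ s ∈ S, ∀ s' ∈ S, s * s' * s⁻¹ * s'⁻¹ ∈ Z)
    (h3 : ∀ s ∈ S, s ^ p ∈ Z ∧ j * s * j⁻¹ * s ∈ Z) {q : G} (hq : q ∈ closure S) :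
    q ^ p ∈ Z ∧ j * q * j⁻¹ * q ∈ Z := by
  let π := QuotientGroup.mk' (Z.subgroupOf (normalizer (Z : Set G)))
  have π1 : ∀ y, π y = 1 ↔ (y : G) ∈ Z := fun y => QuotientGroup.eq_one_iff y
  rw [← Set.image_preimage_eq_of_subset (f := (normalizer (Z : Set G)).subtype) (s := S)
    (fun s hs => ⟨⟨s, h1 hs⟩, rfl⟩), ← MonoidHom.map_closure] at hq
  obtain ⟨q, hq, rfl⟩ := hq
  have hq' := mem_map_of_mem π hq
  rw [MonoidHom.map_closure] at hq'
  have c := isMulCommutative_closure (k := π '' ((normalizer (Z : Set G)).subtype ⁻¹' S)) (by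
    rintro _ ⟨a, ha, rfl⟩ _ ⟨b, hb, rfl⟩
    have := (π1 (a * b * a⁻¹ * b⁻¹)).2 (h2 _ ha _ hb)
    rwa [map_mul, map_inv, mul_inv_eq_one, map_mul, map_inv, mul_inv_eq_iff_eq_mul, map_mul] at this)
  have : ∀ y ∈ closure (π '' ((normalizer (Z : Set G)).subtype ⁻¹' S)),
      y ^ p = 1 ∧ π ⟨j, hj⟩ * y * (π ⟨j, hj⟩)⁻¹ = y⁻¹ := fun y hy => by
    induction hy using closure_induction with
    | mem y hy =>
      obtain ⟨a, ha, rfl⟩ := hy
      exact ⟨(map_pow π ..).symm.trans ((π1 _).2 (h3 _ ha).1), eq_inv_of_mul_eq_one_left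
        (by simpa using (π1 (⟨j, hj⟩ * a * ⟨j, hj⟩⁻¹ * a)).2 (h3 _ ha).2)⟩
    | one => simp
    | mul a b ha hb i1 i2 =>
      have : Commute a b := congrArg Subtype.val (c.1.1 ⟨a, ha⟩ ⟨b, hb⟩)
      exact ⟨by rw [this.mul_pow, i1.1, i2.1, mul_one], by rw [← conj_mul, i1.2, i2.2, this.eq, mul_inv_rev]⟩
    | inv a _ i => exact ⟨by rw [inv_pow, i.1, inv_one], by rw [← conj_inv, i.2]⟩
  exact ⟨(π1 (q ^ p)).1 ((map_pow π ..).trans (this _ hq').1), (π1 (⟨j, hj⟩ * q * ⟨j, hj⟩⁻¹ * q)).1 (by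
    rw [map_mul, map_mul, map_mul, map_inv, (this _ hq').2, inv_mul_cancel])⟩

variable {F : Type*} [Field F]

variable (F) in
/-- long root subgroup -/
def ZZ : Subgroup (GL Ix F) where
  carrier := {g | ∃ t, g = x 11 t}
  one_mem' := ⟨0, (x_zero _).symm⟩
  mul_mem' := by rintro _ _ ⟨s, rfl⟩ ⟨t, rfl⟩; exact ⟨_, (x_add ..).symm⟩
  inv_mem' := by rintro _ ⟨s, rfl⟩; exact ⟨_, x_inv ..⟩

theorem x_pow (r : Fin 12) (t : F) (k : ℕ) : x r t ^ k = x r (k * t) := by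
  induction k with
  | zero => simp [x_zero]
  | succ k ih => rw [pow_succ, ih, ← x_add]; congr 1; push_cast; ring

theorem j_x (r : Fin 12) (t : F) : H 1 (-1) * x r t = x r (if r ∈ [0, 4, 7, 11] then t else -t) * H 1 (-1) := by
  rw [H_x]; congr 2; fin_cases r <;> simp [cf] <;> norm_cast <;> simp

theorem x_comm {r s : Fin 12} (h : (6 ≤ r ∧ 6 ≤ s ∨ r ∈ [7, 4] ∧ s ∈ [11, 0]) ∧ cm r s = []) (t u : F) :
    Commute (x r t) (x s u) := show _ = _ by simpa [h.2] using x_x h.1 t u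

theorem QZ {q : GL Ix F} (hq : q ∈ QQ F) (t : F) : Commute q (x 11 t) :=
  mem_centralizer_singleton_iff.1 ((closure_le (centralizer {x 11 t})).2 (by
    rintro _ ⟨s, hs, u, rfl⟩
    exact mem_centralizer_singleton_iff.2 (x_comm (by revert s; decide) u t)) hq)

theorem Mj {m : GL Ix F} (hm : m ∈ MM F) : Commute m (H 1 (-1)) :=
  mem_centralizer_singleton_iff.1 ((closure_le (centralizer {H 1 (-1)})).2 (by
    rintro _ (rfl | ⟨s, hs, u, rfl⟩ | ⟨l, m, rfl⟩) <;> refine mem_centralizer_singleton_iff.2 ?_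
    · rw [← n_n.1, mul_assoc]
    · obtain rfl : s = 7 := by simpa using hs
      simp [j_x]
    · simp [H_mul]) hm)

variable [Finite F]

theorem M_norm {K : Subgroup (GL Ix F)} {S : List (Fin 12)} (hK : K = closure (gens F S))
    (hS : ∀ s ∈ S, 6 ≤ s ∧ (wt 7 s).1 ∈ S ∧ ∀ k ∈ cm 7 s, k.1 ∈ S) : MM F ≤ normalizer (K : Set (GL Ix F)) := by
  subst hK
  refine (closure_le _).2 fun g hg => mem_normalizer_fintype fun k hk =>
    (closure_le ((closure (gens F S)).comap (MulAut.conj g).toMonoidHom)).2 ?_ hk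
  rintro _ ⟨s, hs, u, rfl⟩
  change g * x s u * g⁻¹ ∈ closure (gens F S)
  rcases hg with rfl | ⟨r, hr, t, rfl⟩ | ⟨l, m, rfl⟩
  · rw [n_x (by simp), mul_inv_cancel_right]; exact subset_closure (x_mem (hS s hs).2.1 _)
  · obtain rfl : r = 7 := by simpa using hr
    rw [x_x (Or.inl ⟨by decide, (hS s hs).1⟩), mul_inv_cancel_right]
    exact mul_mem (subset_closure (x_mem hs _)) (list_prod_mem (by
      simp only [List.forall_mem_map]; exact fun k hk => subset_closure (x_mem ((hS s hs).2.2 k hk) _)))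
  · rw [H_x, mul_inv_cancel_right]; exact subset_closure (x_mem hs _)

theorem P_norm : MM F ⊔ QQ F ≤ normalizer (ZZ F : Set (GL Ix F)) := sup_le (M_norm (S := [11]) (by
    refine le_antisymm ?_ ((closure_le _).2 ?_)
    · rintro _ ⟨t, rfl⟩; exact subset_closure (x_mem (by simp) t)
    · rintro _ ⟨s, hs, t, rfl⟩; exact ⟨t, by simp_all⟩) (by decide)) fun q hq => mem_normalizer_fintype (by
  rintro _ ⟨t, rfl⟩; exact ⟨t, by rw [(QZ hq t).eq, mul_inv_cancel_right]⟩)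

theorem mem_P {g : GL Ix F} (hg : g ∈ MM F ⊔ QQ F) : ∃ m ∈ MM F, ∃ q ∈ QQ F, m * q = g := by
  rwa [← SetLike.mem_coe, coe_mul_of_left_le_normalizer_right _ (QQ F) (M_norm rfl (by decide))] at hg

theorem Q_odd {p : ℕ} (hp : (p : F) = 0) {q : GL Ix F} (hq : q ∈ QQ F) :
    q ^ p ∈ ZZ F ∧ H 1 (-1) * q * (H 1 (-1))⁻¹ * q ∈ ZZ F := by
  refine cl_two _ _ p (P_norm (B_le (H_B _ _))) (fun s hs => P_norm (mem_sup_right (subset_closure hs))) ?_ ?_ hq
  · rintro _ ⟨r, hr, t, rfl⟩ _ ⟨s, hs, u, rfl⟩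
    have : (6 ≤ r ∧ 6 ≤ s) ∧ ∀ k ∈ cm r s, k.1 = 11 := by revert r s; decide
    rw [x_x (Or.inl this.1), mul_inv_cancel_right]
    exact (P_norm (mem_sup_right (subset_closure (x_mem hs u))) _).1 (list_prod_mem (by
      simp only [List.forall_mem_map]; exact fun k hk => ⟨_, by rw [this.2 k hk]⟩))
  · rintro _ ⟨r, hr, t, rfl⟩
    rw [x_pow, hp, zero_mul, x_zero, j_x, mul_inv_cancel_right, ← x_add]
    refine ⟨one_mem _, ?_⟩
    split_ifs with h
    · exact ⟨_, by rw [show r = 11 by revert r; decide]⟩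
    · rw [neg_add_cancel, x_zero]; exact one_mem _

theorem cent_le (h2 : (2 : F) ≠ 0) {C : Subgroup (GL Ix F)} (hM : MM F ≤ C) (hZ : ZZ F ≤ C) (hn : n 11 ∈ C)
    {g : GL Ix F} (hg : g ∈ chevG2.group F) (hj : Commute g (H 1 (-1))) : g ∈ C := by
  obtain ⟨k, hk⟩ : Odd (ringChar F) := (CharP.char_is_prime F _).odd_of_ne_two fun h =>
    h2 (by simpa [h] using ringChar.Nat.cast_ringChar (R := F))
  have hp : ((2 * k + 1 : ℕ) : F) = 0 := hk ▸ ringChar.Nat.cast_ringChar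
  have CQ : ∀ q ∈ QQ F, Commute q (H 1 (-1)) → q ∈ ZZ F := fun q hq h => by
    obtain ⟨a, b⟩ := Q_odd hp hq
    rw [← h.eq, mul_inv_cancel_right, ← sq] at b
    rwa [pow_succ, pow_mul, mul_mem_cancel_left (pow_mem b k)] at a
  have CP : ∀ g ∈ MM F ⊔ QQ F, Commute g (H 1 (-1)) → g ∈ C := fun g hg h => by
    obtain ⟨m, hm, q, hq, rfl⟩ := mem_P hg
    exact mul_mem (hM hm) (hZ (CQ q hq (by simpa using (Mj hm).inv_left.mul_left h)))
  obtain ⟨b, hb, L, hL, p, hp', rfl⟩ := cover hg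
  clear hg
  obtain ⟨m, hm, q, hq, rfl⟩ := mem_P (B_le hb)
  rw [mul_assoc m, mul_assoc m, mul_mem_cancel_left (hM hm)]
  replace hj : Commute (q * wd L * p) (H 1 (-1)) := by simpa [mul_assoc] using (Mj hm).inv_left.mul_left hj
  have hq' : q⁻¹ * (H 1 (-1) * q * (H 1 (-1))⁻¹) ∈ QQ F := mul_mem (inv_mem hq)
    ((M_norm rfl (by decide) (subset_closure (Or.inr (Or.inr ⟨1, -1, rfl⟩))) _).1 hq)
  have key : ∀ t : F, q⁻¹ * (H 1 (-1) * q * (H 1 (-1))⁻¹) * x (act L 11) (if act L 11 ∈ [0, 4, 7, 11] then t else -t) =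
      x (act L 11) t * (q⁻¹ * (H 1 (-1) * q * (H 1 (-1))⁻¹)) := fun t => by
    obtain ⟨t', e⟩ := wd_x (L := L) (by clear hj; revert L; decide) 11 t
    obtain ⟨s, e'⟩ := (P_norm (inv_mem hp') (x 11 t')).1 ⟨t', rfl⟩
    have c : Commute (x 11 s) (H 1 (-1)) := (by simp [j_x] : H 1 (-1) * x 11 s = _).symm
    have c' := (hj.mul_left c).mul_left hj.inv_left
    rw [← e', show q * wd L * p * (p⁻¹ * x 11 t' * p⁻¹⁻¹) * (q * wd L * p)⁻¹ = q * (wd L * x 11 t') *
      (wd L)⁻¹ * q⁻¹ by group, e] at c'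
    rw [← mul_inv_eq_iff_eq_mul.2 (j_x _ t)]
    calc _ = q⁻¹ * (H 1 (-1) * (q * (x (act L 11) t * wd L) * (wd L)⁻¹ * q⁻¹)) * q * (H 1 (-1))⁻¹ := by group
      _ = _ := by rw [← c'.eq]; group
  generalize hq0 : q⁻¹ * (H 1 (-1) * q * (H 1 (-1))⁻¹) = q' at hq' key
  by_cases h : act L 11 ∈ [10, 6, 5, 1]
  · have h' : act L 11 ∉ [0, 4, 7, 11] := by revert h; generalize act L 11 = r; revert r; decide
    simp only [h', if_false] at key
    have : ∀ (i : ℕ) (t : F), q' ^ i * x (act L 11) ((-1) ^ i * t) = x (act L 11) t * q' ^ i := fun i => by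
      induction i with
      | zero => simp
      | succ i ih => intro t; rw [pow_succ, mul_assoc, pow_succ', neg_one_mul, neg_mul, key, ← mul_assoc, ih, mul_assoc]
    obtain ⟨⟨s, hs⟩, -⟩ := Q_odd hp hq'
    have := this ((2 * k + 1) * (2 * k + 1)) 1
    rw [pow_mul, hs, x_pow, hp, zero_mul, x_zero, one_mul, mul_one, 
      ((odd_two_mul_add_one k).mul (odd_two_mul_add_one k)).neg_one_pow, mul_one] at this
    have := congrArg (fun g : GL Ix F => g.1 (.inr (act L 11)) (.inl 1)) this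
    generalize act L 11 = r at this h
    have h4 : (4 : F) ≠ 0 := by have := mul_ne_zero h2 h2; norm_num at this ⊢; exact this
    simp only [List.mem_cons, List.not_mem_nil, or_false] at h
    rcases h with rfl | rfl | rfl | rfl <;> simp [x, X_rl, chevG2CartanSR] at this
    exacts [(h2 (by linear_combination -this)).elim, (h4 (by linear_combination this)).elim,
      (h4 (by linear_combination -this)).elim, (h2 (by linear_combination this)).elim]
  obtain rfl | rfl : L = [] ∨ L = [6, 7, 6, 7, 6] := by clear hj key; revert L; decide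
  · exact CP _ (mul_mem (mul_mem (mem_sup_right hq) (one_mem _)) hp') hj
  have c0 : ∀ t : F, Commute q' (x 0 t) := key
  have cn : Commute q' (n 11) := (QZ hq' 1).mul_right ((c0 _).mul_right (QZ hq' 1))
  obtain ⟨s, rfl⟩ := CQ _ hq' (n_n (F := F).2.2 ▸ cn.mul_right cn)
  have := n_x (r := 11) (by simp) 11 s
  rw [← cn.eq, mul_left_inj] at this
  rw [x_inj (t := s) (Or.inr (by simpa [wt] using this)), x_zero, inv_mul_eq_one, eq_mul_inv_iff_mul_eq] at hq0
  have e : (wd [6, 7, 6, 7, 6] : GL Ix F) = n 11 * H 1 (-1) := by simpa [wd] using w_five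
  have c : Commute (q * wd [6, 7, 6, 7, 6]) (H 1 (-1)) := Commute.mul_left hq0 (by
    rw [e, ← n_n.2.2]; exact ((Commute.refl _).mul_right (Commute.refl _)).mul_left (Commute.refl _))
  exact mul_mem (mul_mem (hZ (CQ q hq hq0)) (e ▸ mul_mem hn (hM (subset_closure (Or.inr (Or.inr ⟨_, _, rfl⟩))))))
    (CP p hp' (by simpa [mul_assoc] using c.inv_left.mul_left hj))

end Cfsg.Lib.G2
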