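import Cfsg.Prelude.Def_ChevG2

/-!
A reflective checker for relations between words in the root elements of `G₂`.
-/

set_option autoImplicit false

namespace Cfsg.Lib.G2

open Matrix Cfsg.Lie

/-- coordinates -/
abbrev Ix : Type := Fin 2 ⊕ Fin 12
/-- monomials in two variables and two invertible variables -/
abbrev Mo : Type := ℕ × ℕ × ℤ × ℤ
/-- polynomials -/
abbrev Po : Type := List (ℤ × Mo)
/-- vectors -/
abbrev Ve : Type := List ((Ix × Mo) × ℤ)
/-- letters: root elements and diagonal elements -/
abbrev Le : Type := (Fin 12 × Po) ⊕ ((ℕ × ℤ × ℤ) × (ℕ × ℤ × ℤ))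

/-- columns of the root elements -/
def col (r : Fin 12) : Ix → List (ℕ × ℤ × Ix)
  | .inl i => [(0, 1, .inl i), (1, -((chevG2CartanSR.getD i.val #[]).getD r.val 0), .inr r)]
  | .inr s => if s = r then [(0, 1, .inr r)] else if s.val = chevG2NegIdx.getD r.val 0 then
      [(0, 1, .inr s), (1, (chevG2Coroot.getD r.val #[]).getD 0 0, .inl 0),
        (1, (chevG2Coroot.getD r.val #[]).getD 1 0, .inl 1), (2, -1, .inr r)]
      else (0, 1, .inr s) :: (List.finRange 12).flatMap fun u =>
        (chevG2.chainCoeff r.val s.val u.val).map fun km => (km.1, km.2, .inr u)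

/-- coefficients of the roots -/
def cf : Ix → ℤ × ℤ
  | .inl _ => (0, 0)
  | .inr s => ![(-3, -2), (-3, -1), (-2, -1), (-1, -1), (-1, 0), (0, -1), (0, 1), (1, 0), (1, 1), (2, 1),
      (3, 1), (3, 2)] s

variable {F : Type*} [Field F]

/-- root elements -/
def X (r : Fin 12) (t : F) : Matrix Ix Ix F := chevG2.xMat F r t

/-- diagonal elements -/
def Hm (l m : Fˣ) : Matrix Ix Ix F := diagonal fun c => ((l ^ (cf c).1 * m ^ (cf c).2 : Fˣ) : F)

theorem sum_single {α : Type*} (L : List α) (f : α → Ix) (g : α → F) (i : Ix) :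
    (L.map fun a => (Pi.single (f a) (g a) : Ix → F)).sum i = (L.map fun a => if i = f a then g a else 0).sum := by
  induction L with
  | nil => rfl
  | cons a L ih => simp [ih, Pi.single_apply]

theorem X_ll (r : Fin 12) (t : F) (i c : Fin 2) : X r t (.inl i) (.inl c) = if i = c then 1 else 0 := rfl

theorem X_rl (r : Fin 12) (t : F) (i : Fin 12) (c : Fin 2) : X r t (.inr i) (.inl c) =
    if i = r then -(((chevG2CartanSR.getD c.val #[]).getD r.val 0 : ℤ) : F) * t else 0 := rfl

theorem X_lr (r : Fin 12) (t : F) (i : Fin 2) (s : Fin 12) : X r t (.inl i) (.inr s) =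
    if s = r then 0 else if s.val = chevG2NegIdx.getD r.val 0 then
      (((chevG2Coroot.getD r.val #[]).getD i.val 0 : ℤ) : F) * t else 0 := rfl

theorem X_rr (r : Fin 12) (t : F) (u s : Fin 12) : X r t (.inr u) (.inr s) =
    if s = r then (if u = r then 1 else 0) else if s.val = chevG2NegIdx.getD r.val 0 then
      (if u = s then 1 else if u = r then -(t ^ 2) else 0) else (if u = s then 1 else 0) +
      ((chevG2.chainCoeff r.val s.val u.val).map fun km => ((km.2 : ℤ) : F) * t ^ km.1).sum := rfl

theorem X_col (r : Fin 12) (t : F) (c : Ix) (a : F) : X r t *ᵥ Pi.single c a =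
    ((col r c).map fun k => (Pi.single k.2.2 (a * k.2.1 * t ^ k.1) : Ix → F)).sum := by
  ext i
  rw [sum_single, mulVec_single]
  change X r t i c * a = _
  rcases c with c | s
  · rcases i with i | i <;> simp [col, X_ll, X_rl, mul_comm, mul_left_comm]
  · rcases i with i | i <;> simp only [col, X_lr, X_rr] <;> by_cases h1 : s = r <;>
      simp only [h1, if_true, if_false]
    · simp
    · split_ifs
      · fin_cases i <;> simp [mul_comm, mul_left_comm]
      · simp [List.map_flatMap, Function.comp_def, List.flatMap_def, List.sum_flatten]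
    · simp
    · by_cases h2 : s.val = chevG2NegIdx.getD r.val 0 <;> simp only [h2, if_true, if_false]
      · by_cases e1 : i = s
        · simp [e1, h1]
        · by_cases e2 : i = r <;> simp [e1, e2, Ne.symm h1, mul_comm]
      · simp only [List.map_cons, List.sum_cons, Sum.inr.injEq, List.map_flatMap, List.map_map,
          Function.comp_def]
        rw [List.flatMap_def, List.sum_flatten, List.map_map, ← Fin.sum_univ_def,
          Finset.sum_eq_single i (fun b _ hb => by simp [hb.symm]) (by simp)]
        simp [mul_add, ← List.sum_map_mul_left, mul_comm, mul_left_comm]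

/-- multiplication of polynomials -/
def pmul (p q : Po) : Po := p.flatMap fun c => q.map fun d => (c.1 * d.1, c.2 + d.2)

/-- powers of polynomials -/
def ppow (p : Po) : ℕ → Po
  | 0 => [(1, 0)]
  | k + 1 => pmul p (ppow p k)

/-- insertion of a term -/
def ins (a : (Ix × Mo) × ℤ) : Ve → Ve
  | [] => [a]
  | b :: v => if a.1 = b.1 then (b.1, a.2 + b.2) :: v else b :: ins a v

/-- collection of terms -/
def nrm (v : Ve) : Ve := (v.foldr ins []).filter fun a => a.2 ≠ 0

/-- a letter applied to a vector -/
def app : Le → Ve → Ve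
  | .inl L, v => nrm (v.flatMap fun a => (col L.1 a.1.1).flatMap fun k =>
      (ppow L.2 k.1).map fun d => ((k.2.2, a.1.2 + d.2), a.2 * k.2.1 * d.1))
  | .inr L, v => v.map fun a => ((a.1.1, a.1.2 + (0, 0, L.1.2.1 * (cf a.1.1).1 + L.2.2.1 * (cf a.1.1).2,
      L.1.2.2 * (cf a.1.1).1 + L.2.2.2 * (cf a.1.1).2)),
      a.2 * (-1) ^ (L.1.1 * (cf a.1.1).1.natAbs + L.2.1 * (cf a.1.1).2.natAbs))

/-- the check -/
def chk (w w' : List Le) : Bool := ((List.finRange 2).map Sum.inl ++ (List.finRange 12).map Sum.inr).all
  fun c => nrm (w.foldr app [((c, 0), 1)] ++ w'.foldr app [((c, 0), -1)]) = []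

variable (t u : F) (l m : Fˣ)

/-- value of a monomial -/
def mev (x : Mo) : F := t ^ x.1 * u ^ x.2.1 * ((l ^ x.2.2.1 * m ^ x.2.2.2 : Fˣ) : F)

/-- value of a polynomial -/
def pev (p : Po) : F := (p.map fun c => c.1 * mev t u l m c.2).sum

/-- value of a vector -/
def vev (v : Ve) : Ix → F := (v.map fun a => (Pi.single a.1.1 (a.2 * mev t u l m a.1.2) : Ix → F)).sum

/-- value of an invertible monomial -/
def uev (x : ℕ × ℤ × ℤ) : Fˣ := (-1) ^ x.1 * l ^ x.2.1 * m ^ x.2.2

/-- value of a letter -/
def lev : Le → Matrix Ix Ix F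
  | .inl L => X L.1 (pev t u l m L.2)
  | .inr L => Hm (uev l m L.1) (uev l m L.2)

theorem mev_add (x y : Mo) : mev t u l m (x + y) = mev t u l m x * mev t u l m y := by
  simp only [mev, Prod.fst_add, Prod.snd_add, pow_add, _root_.zpow_add, Units.val_mul]; ring

theorem pev_mul (p q : Po) : pev t u l m (pmul p q) = pev t u l m p * pev t u l m q := by
  induction p with
  | nil => simp [pev, pmul]
  | cons c p ih =>
    simp only [pev, pmul, List.flatMap_cons, List.map_append, List.sum_append, List.map_cons,
      List.sum_cons, add_mul, List.map_map] at ih ⊢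
    rw [ih, add_left_inj, ← List.sum_map_mul_left]
    exact congrArg _ (List.map_congr_left fun d _ => by simp [mev_add]; ring)

theorem pev_pow (p : Po) (k : ℕ) : pev t u l m (ppow p k) = pev t u l m p ^ k := by
  induction k with
  | zero => simp [pev, ppow, mev]
  | succ k ih => rw [ppow, pev_mul, ih, pow_succ']

theorem vev_cons (a : (Ix × Mo) × ℤ) (v : Ve) : vev t u l m (a :: v) =
    Pi.single a.1.1 (a.2 * mev t u l m a.1.2) + vev t u l m v := by simp [vev]

theorem vev_append (v w : Ve) : vev t u l m (v ++ w) = vev t u l m v + vev t u l m w := by simp [vev]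

theorem vev_ins (a : (Ix × Mo) × ℤ) (v : Ve) : vev t u l m (ins a v) = vev t u l m (a :: v) := by
  induction v with
  | nil => rfl
  | cons b v ih =>
    rw [ins]
    split_ifs with h
    · simp only [vev_cons, h, Int.cast_add, add_mul, Pi.single_add, add_assoc]
    · rw [vev_cons, ih, vev_cons, vev_cons, vev_cons, add_left_comm]

theorem vev_nrm (v : Ve) : vev t u l m (nrm v) = vev t u l m v := by
  have : ∀ v : Ve, vev t u l m (v.filter fun a => a.2 ≠ 0) = vev t u l m v := fun v => by
    induction v with
    | nil => rfl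
    | cons a v ih => by_cases h : a.2 = 0 <;> simp_all [vev_cons]
  rw [nrm, this]
  induction v with
  | nil => rfl
  | cons a v ih => rw [List.foldr_cons, vev_ins, vev_cons, vev_cons, ih]

theorem vev_app (L : Le) (v : Ve) : vev t u l m (app L v) = lev t u l m L *ᵥ vev t u l m v := by
  rcases L with L | L
  · rw [app, vev_nrm]
    induction v with
    | nil => simp [vev]
    | cons a v ih =>
      rw [List.flatMap_cons, vev_append, ih, vev_cons, mulVec_add, lev, X_col]
      congr 1
      induction col L.1 a.1.1 with
      | nil => rfl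
      | cons k c ih =>
        rw [List.flatMap_cons, vev_append, ih, List.map_cons, List.sum_cons, ← pev_pow]
        congr 1
        induction ppow L.2 k.1 with
        | nil => simp [vev, pev]
        | cons d p ih =>
          rw [List.map_cons, vev_cons, ih, ← Pi.single_add]
          congr 1
          simp [pev, mev_add]; ring
  · rw [app]
    induction v with
    | nil => simp [vev]
    | cons a v ih =>
      rw [List.map_cons, vev_cons, ih, vev_cons, mulVec_add, lev, Hm, diagonal_mulVec_single]
      congr 2
      have k : ∀ (e : ℕ) (z : ℤ), ((-1 : Fˣ) ^ e) ^ z = (-1) ^ (e * z.natAbs) := fun e z => by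
        obtain ⟨n, rfl | rfl⟩ := Int.eq_nat_or_neg z <;> simp [pow_mul, ← inv_pow, inv_neg]
      rw [mev_add]
      simp only [mev, uev, mul_zpow, k, _root_.zpow_add, _root_.zpow_mul, pow_add, Units.val_mul]
      push_cast
      ring

theorem chk_sound {w w' : List Le} (h : chk w w' = true) :
    (w.map (lev t u l m)).prod = (w'.map (lev t u l m)).prod := by
  have k : ∀ (w : List Le) v, vev t u l m (w.foldr app v) = (w.map (lev t u l m)).prod *ᵥ vev t u l m v :=
    fun w v => by
      induction w with
      | nil => simp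
      | cons L w ih => rw [List.foldr_cons, vev_app, ih, mulVec_mulVec, List.map_cons, List.prod_cons]
  ext i c
  have := congrArg (vev t u l m) (of_decide_eq_true (List.all_eq_true.1 h c (by rcases c with c | c <;> simp)))
  rw [vev_nrm, vev_append, k, k] at this
  simpa [vev, mev, Pi.single_neg, mulVec_neg, add_neg_eq_zero] using congrFun this i

end Cfsg.Lib.G2
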