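import Cfsg.Agent.Lib.Hay.Two

/-!
Homomorphisms from `GL₂` given by the rank one Steinberg relations.
-/

set_option autoImplicit false

namespace Cfsg.Lib.G2

open Cfsg.Lib.Hay

variable {F Γ : Type*} [Field F] [Group Γ]

theorem exists_gl2_hom' (x : F → Γ) (d : F → F → Γ) (n : Γ) (xa : ∀ s t, x (s + t) = x s * x t)
    (dm : ∀ a b a' b', a ≠ 0 → b ≠ 0 → a' ≠ 0 → b' ≠ 0 → d a b * d a' b' = d (a * a') (b * b'))
    (dx : ∀ a b t, a ≠ 0 → b ≠ 0 → d a b * x t = x (a / b * t) * d a b)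
    (nd : ∀ a b, a ≠ 0 → b ≠ 0 → n * d a b = d b a * n) (nn : n * n = d (-1) (-1))
    (nxn : ∀ l, l ≠ 0 → n * x l * n = x (-l⁻¹) * n * d (-l) (-l⁻¹) * x (-l⁻¹)) :
    ∃ ψ : GL (Fin 2) F →* Γ, (∀ t h, ψ (gl 1 t 0 1 h) = x t) ∧ (∀ a b h, ψ (gl a 0 0 b h) = d a b) ∧
      ∀ h, ψ (gl 0 1 (-1) 0 h) = n := by
  classical
  have x0 : x 0 = 1 := mul_left_cancel (a := x 0) (by rw [← xa, add_zero, mul_one])
  have d1 : d 1 1 = 1 := mul_left_cancel (a := d 1 1) (by rw [dm] <;> simp)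
  obtain ⟨f, hf⟩ : ∃ f : GL (Fin 2) F → Γ, ∀ a b c e h, f (gl a b c e h) = if c = 0 then x (b / e) * d a e else
      x (a / c) * n * d (-c) (-(a * e - b * c) / c) * x (e / c) :=
    ⟨fun g => if g 1 0 = 0 then x (g 0 1 / g 1 1) * d (g 0 0) (g 1 1) else x (g 0 0 / g 1 0) * n *
      d (-g 1 0) (-(g 0 0 * g 1 1 - g 0 1 * g 1 0) / g 1 0) * x (g 1 1 / g 1 0), fun _ _ _ _ _ => rfl⟩
  have cg : ∀ {a b c e a' b' c' e'}, a = a' ∧ b = b' ∧ c = c' ∧ e = e' →
      x a * n * d b c * x e = x a' * n * d b' c' * x e' := by rintro _ _ _ _ _ _ _ _ ⟨rfl, rfl, rfl, rfl⟩; rfl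
  have f1 : ∀ g t h, f (g * gl 1 t 0 1 h) = f g * x t := fun g t h => by
    obtain ⟨a, b, c, e, h', rfl⟩ := exists_gl g
    rw [gl_mul, hf, hf]
    by_cases hc : c = 0
    · subst hc
      have ⟨ha, he⟩ : a ≠ 0 ∧ e ≠ 0 := by simpa using h'
      rw [if_pos (by simp), if_pos rfl, mul_assoc, dx _ _ _ ha he, ← mul_assoc, ← xa]
      congr 2 <;> simp
      field_simp; ring
    · rw [if_neg (by simpa using hc), if_neg hc, mul_assoc _ _ (x t), ← xa]
      refine cg ⟨?_, ?_, ?_, ?_⟩ <;> simp only [mul_zero, add_zero, zero_add, mul_neg, mul_one] <;> field_simp <;> ring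
  have f2 : ∀ g a' b' h, f (g * gl a' 0 0 b' h) = f g * d a' b' := fun g a' b' h => by
    obtain ⟨a, b, c, e, h', rfl⟩ := exists_gl g
    have ⟨ha', hb'⟩ : a' ≠ 0 ∧ b' ≠ 0 := by simpa using h
    rw [gl_mul, hf, hf]
    by_cases hc : c = 0
    · subst hc
      have ⟨ha, he⟩ : a ≠ 0 ∧ e ≠ 0 := by simpa using h'
      rw [if_pos (by simp), if_pos rfl, mul_assoc, dm _ _ _ _ ha he ha' hb']
      congr 2 <;> field_simp <;> ring
    · have := dx a' b' (e * b' / (c * a')) ha' hb'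
      rw [show a' / b' * (e * b' / (c * a')) = e / c by field_simp] at this
      rw [if_neg (by simp [hc, ha']), if_neg hc, mul_assoc _ _ (d a' b'), ← this, ← mul_assoc,
        mul_assoc _ _ (d a' b'), dm _ _ _ _ (by simpa) (div_ne_zero (neg_ne_zero.2 h') hc) ha' hb']
      refine cg ⟨?_, ?_, ?_, ?_⟩ <;> simp only [mul_zero, add_zero, zero_add, mul_neg, mul_one] <;> field_simp <;> ring
  have f3 : ∀ g h, f (g * gl 0 1 (-1) 0 h) = f g * n := fun g h => by
    obtain ⟨a, b, c, e, h', rfl⟩ := exists_gl g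
    rw [gl_mul, hf, hf]
    by_cases hc : c = 0
    · subst hc
      have ⟨ha, he⟩ : a ≠ 0 ∧ e ≠ 0 := by simpa using h'
      rw [if_neg (by simpa), if_pos rfl, mul_assoc _ _ n, ← nd _ _ he ha, ← mul_assoc, ← mul_one (_ * d e a), ← x0]
      refine cg ⟨?_, ?_, ?_, ?_⟩ <;> simp only [mul_zero, add_zero, zero_add, mul_neg, mul_one] <;> field_simp <;> ring
    have k := div_ne_zero (neg_ne_zero.2 h') hc
    rw [if_neg hc, mul_assoc (x (a / c)) n, nd _ _ (neg_ne_zero.2 hc) k, ← mul_assoc, mul_assoc _ n (x (e / c)),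
      mul_assoc _ (n * x (e / c)) n]
    by_cases he : e = 0
    · subst he
      rw [if_pos (by simp), zero_div, x0, mul_one n, nn, mul_assoc, dm _ _ _ _ k (by simpa) (by simp) (by simp)]
      congr 2 <;> simp only [mul_zero, add_zero, zero_add, mul_neg, mul_one] <;> field_simp <;> ring
    · have k' := div_ne_zero he hc
      rw [if_neg (by simpa), nxn _ k', ← mul_assoc, ← mul_assoc, ← mul_assoc, mul_assoc (x (a / c)),
        dx _ _ _ k (by simpa), ← mul_assoc, ← xa, mul_assoc _ _ n, ← nd _ _ (by simpa) k, ← mul_assoc,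
        mul_assoc _ (d (-c) _), dm _ _ _ _ (by simpa) k (by simpa using ⟨he, hc⟩) (by simpa using ⟨hc, he⟩)]
      refine cg ⟨?_, ?_, ?_, ?_⟩ <;> simp only [mul_zero, add_zero, zero_add, mul_neg, mul_one] <;> field_simp <;> ring
  have f0 : f 1 = 1 := by rw [← gl_one, hf]; simp [x0, d1]
  have fm : ∀ g g', f (g * g') = f g * f g' := fun g g' => by
    obtain ⟨a, b, c, e, h', rfl⟩ := exists_gl g'
    rw [hf]
    split_ifs with hc
    · subst hc
      have ⟨ha, he⟩ : a ≠ 0 ∧ e ≠ 0 := by simpa using h'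
      rw [← mul_assoc, ← f1 _ _ (by simp), ← f2 _ _ _ (by simp [ha, he]), mul_assoc, gl_mul]
      congr 2
      exact gl_ext (by simp) (by field_simp; simp) (by simp) (by simp)
    · simp only [← mul_assoc]
      rw [← f1 _ _ (by simp), ← f3 _ (by simp), ← f2 _ _ _ (by simpa using ⟨hc, sub_ne_zero.2 (sub_ne_zero.1 h').symm, hc⟩),
        ← f1 _ _ (by simp)]
      simp only [mul_assoc, gl_mul]
      congr 2
      exact gl_ext (by field_simp; ring) (by field_simp; ring) (by field_simp; ring) (by field_simp; ring)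
  exact ⟨MonoidHom.mk' f fm, fun t h => by simpa [f0] using f1 1 t h, fun a b h => by simpa [f0] using f2 1 a b h,
    fun h => by simpa [f0] using f3 1 h⟩

theorem exists_gl2_hom (x : F → Γ) (d : Fˣ → Fˣ → Γ) (n : Γ) (xa : ∀ s t, x (s + t) = x s * x t)
    (dm : ∀ a b a' b', d a b * d a' b' = d (a * a') (b * b'))
    (dx : ∀ a b t, d a b * x t = x (a / b * t) * d a b)
    (nd : ∀ a b, n * d a b = d b a * n) (nn : n * n = d (-1) (-1))
    (nxn : ∀ l : Fˣ, n * x l * n = x (-(l : F)⁻¹) * n * d (-l) (-l⁻¹) * x (-(l : F)⁻¹)) :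
    ∃ ψ : GL (Fin 2) F →* Γ, (∀ t h, ψ (gl 1 t 0 1 h) = x t) ∧ (∀ (a b : Fˣ) h, ψ (gl a 0 0 b h) = d a b) ∧
      ∀ h, ψ (gl 0 1 (-1) 0 h) = n := by
  classical
  obtain ⟨D, hD⟩ : ∃ D : F → F → Γ, ∀ a b : Fˣ, D a b = d a b :=
    ⟨fun a b => if h : a ≠ 0 ∧ b ≠ 0 then d (Units.mk0 a h.1) (Units.mk0 b h.2) else 1, fun a b => by simp⟩
  obtain ⟨ψ, h1, h2, h3⟩ := exists_gl2_hom' x D n xa (fun a b a' b' h1 h2 h3 h4 => by
      lift a to Fˣ using h1.isUnit; lift b to Fˣ using h2.isUnit; lift a' to Fˣ using h3.isUnit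
      lift b' to Fˣ using h4.isUnit
      rw [← Units.val_mul, ← Units.val_mul, hD, hD, hD, dm])
    (fun a b t h1 h2 => by lift a to Fˣ using h1.isUnit; lift b to Fˣ using h2.isUnit; rw [hD, dx])
    (fun a b h1 h2 => by lift a to Fˣ using h1.isUnit; lift b to Fˣ using h2.isUnit; rw [hD, hD, nd])
    (by rw [nn, ← hD]; simp) (fun l h => by lift l to Fˣ using h.isUnit; rw [nxn, ← hD]; simp)
  exact ⟨ψ, h1, fun a b h => by rw [h2, hD], h3⟩

theorem gl_ind {K : Subgroup (GL (Fin 2) F)} (h1 : ∀ t h, gl 1 t 0 1 h ∈ K) (h2 : ∀ a b h, gl a 0 0 b h ∈ K)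
    (h3 : ∀ h, gl 0 1 (-1) 0 h ∈ K) (g : GL (Fin 2) F) : g ∈ K := by
  obtain ⟨a, b, c, e, h, rfl⟩ := exists_gl g
  by_cases hc : c = 0
  · subst hc
    have ⟨ha, he⟩ : a ≠ 0 ∧ e ≠ 0 := by simpa using h
    convert mul_mem (h1 (b / e) (by simp)) (h2 a e (by simp [ha, he])) using 1
    rw [gl_mul]
    exact gl_ext (by simp) (by field_simp; simp) (by simp) (by simp)
  · convert mul_mem (mul_mem (mul_mem (h1 (a / c) (by simp)) (h3 (by simp))) (h2 (-c) (-(a * e - b * c) / c)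
      (by simpa using ⟨hc, sub_ne_zero.2 (sub_ne_zero.1 h).symm, hc⟩))) (h1 (e / c) (by simp)) using 1
    simp only [gl_mul]
    exact gl_ext (by field_simp; ring) (by field_simp; ring) (by field_simp; ring) (by field_simp; ring)

end Cfsg.Lib.G2
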