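import Cfsg.Agent.Lib.G2.Chk
import Cfsg.Agent.Lib.G2.Hom

/-!
Relations between the root elements of `G₂`.
-/

set_option autoImplicit false

namespace Cfsg.Lib.G2

open Matrix Cfsg.Lie Cfsg.Lib.Hay

/-- root letter -/
def lx (r : Fin 12) (c : ℤ) (y : Mo) : Le := .inl (r, [(c, y)])

/-- Weyl word -/
def ln (r : Fin 12) : List Le := [lx r 1 0, lx r.rev (-1) 0, lx r 1 0]

/-- action of the reflections -/
def wt (r s : Fin 12) : Fin 12 × ℤ := (if r = 7 then ![(0, 1), (5, -1), (3, -1), (2, 1), (7, -1), (1, 1), (10, 1),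
  (4, -1), (9, 1), (8, -1), (6, -1), (11, 1)] else if r = 6 then ![(1, -1), (0, 1), (2, 1), (4, -1), (3, 1), (6, -1),
  (5, -1), (8, 1), (7, -1), (9, 1), (11, 1), (10, -1)] else ![(11, -1), (6, 1), (8, 1), (9, -1), (4, 1), (10, -1),
  (1, -1), (7, 1), (2, -1), (3, 1), (5, 1), (0, -1)]) s

/-- commutators -/
def cm (r s : Fin 12) : List (Fin 12 × ℤ × ℕ × ℕ) :=
  if (r, s) = (6, 7) then [(8, 1, 1, 1), (9, 1, 1, 2), (10, -1, 1, 3), (11, -2, 2, 3)]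
  else if (r, s) = (7, 6) then [(8, -1, 1, 1), (9, 1, 2, 1), (10, 1, 3, 1), (11, 1, 3, 2)]
  else if (r, s) = (7, 8) then [(9, -2, 1, 1), (10, -3, 2, 1), (11, 3, 1, 2)]
  else if (r, s) = (8, 7) then [(9, 2, 1, 1), (10, -3, 1, 2), (11, 3, 2, 1)]
  else if (r, s) = (7, 9) then [(10, 3, 1, 1)] else if (r, s) = (9, 7) then [(10, -3, 1, 1)]
  else if (r, s) = (6, 10) then [(11, 1, 1, 1)] else if (r, s) = (10, 6) then [(11, -1, 1, 1)]
  else if (r, s) = (8, 9) then [(11, 3, 1, 1)] else if (r, s) = (9, 8) then [(11, -3, 1, 1)] else []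

theorem c_inv : ∀ r, chk [lx r 1 (1, 0, 0, 0), lx r (-1) (1, 0, 0, 0)] [] = true := by decide +kernel

theorem c_add : ∀ r, chk [.inl (r, [(1, (1, 0, 0, 0)), (1, (0, 1, 0, 0))])]
    [lx r 1 (1, 0, 0, 0), lx r 1 (0, 1, 0, 0)] = true := by decide +kernel

theorem c_tor : ∀ r, chk [.inr ((0, 1, 0), (0, 0, 1)), lx r 1 (1, 0, 0, 0)]
    [lx r 1 (1, 0, (cf (.inr r)).1, (cf (.inr r)).2), .inr ((0, 1, 0), (0, 0, 1))] = true := by decide +kernel

theorem c_wt : ∀ r ∈ [7, 6, 11], ∀ s, chk (ln r ++ [lx s 1 (1, 0, 0, 0)])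
    (lx (wt r s).1 (wt r s).2 (1, 0, 0, 0) :: ln r) = true := by decide +kernel

theorem c_cm : ∀ r s : Fin 12, 6 ≤ r ∧ 6 ≤ s ∨ r ∈ [7, 4] ∧ s ∈ [11, 0] → chk [lx r 1 (1, 0, 0, 0), lx s 1 (0, 1, 0, 0)]
    (lx s 1 (0, 1, 0, 0) :: (cm r s).map (fun k => lx k.1 k.2.1 (k.2.2.1, k.2.2.2, 0, 0)) ++
      [lx r 1 (1, 0, 0, 0)]) = true := by decide +kernel

variable {F : Type*} [Field F]

theorem X_neg (r : Fin 12) (t : F) : X r t * X r (-t) = 1 := by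
  simpa [lx, lev, pev, mev] using chk_sound t 0 1 1 (c_inv r)

/-- root elements -/
def x (r : Fin 12) (t : F) : GL Ix F := ⟨X r t, X r (-t), X_neg r t, by simpa using X_neg r (-t)⟩

theorem Hm_mul (l m l' m' : Fˣ) : Hm l m * Hm l' m' = Hm (l * l') (m * m') := by
  simp only [Hm, diagonal_mul_diagonal, mul_zpow, ← Units.val_mul, mul_mul_mul_comm]

theorem Hm_one : Hm (1 : Fˣ) 1 = 1 := by simp [Hm]

/-- diagonal elements -/
def H (l m : Fˣ) : GL Ix F := ⟨Hm l m, Hm l⁻¹ m⁻¹, by simp [Hm_mul, Hm_one], by simp [Hm_mul, Hm_one]⟩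

theorem H_mul (l m l' m' : Fˣ) : H l m * H l' m' = H (l * l') (m * m') := Units.ext (Hm_mul ..)

theorem H_one : H (1 : Fˣ) 1 = 1 := Units.ext Hm_one

theorem H_inv (l m : Fˣ) : (H l m)⁻¹ = H l⁻¹ m⁻¹ := inv_eq_of_mul_eq_one_right (by simp [H_mul, H_one])

theorem x_inv (r : Fin 12) (t : F) : (x r t)⁻¹ = x r (-t) := Units.ext rfl

/-- Weyl elements -/
def n (r : Fin 12) : GL Ix F := x r 1 * (x r.rev (-1) * x r 1)

/-- value of a letter -/
def ulev (t u : F) (l m : Fˣ) : Le → GL Ix F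
  | .inl L => x L.1 (pev t u l m L.2)
  | .inr L => H (uev l m L.1) (uev l m L.2)

theorem usound (t u : F) (l m : Fˣ) {w w' : List Le} (h : chk w w' = true) :
    (w.map (ulev t u l m)).prod = (w'.map (ulev t u l m)).prod := by
  have k : ∀ w : List Le, ((w.map (ulev t u l m)).prod : GL Ix F) = (w.map (lev t u l m)).prod := fun w => by
    induction w with
    | nil => rfl
    | cons L w ih => rw [List.map_cons, List.map_cons, List.prod_cons, List.prod_cons, Units.val_mul, ih]; cases L <;> rfl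
  exact Units.ext (by rw [k, k, chk_sound t u l m h])

theorem x_add (r : Fin 12) (s t : F) : x r (s + t) = x r s * x r t := by
  simpa [lx, ulev, pev, mev] using usound s t 1 1 (c_add r)

theorem x_zero (r : Fin 12) : x r (0 : F) = 1 := mul_left_cancel (a := x r 0) (by rw [← x_add, add_zero, mul_one])

theorem H_x (l m : Fˣ) (r : Fin 12) (t : F) :
    H l m * x r t = x r ((l ^ (cf (.inr r)).1 * m ^ (cf (.inr r)).2 : Fˣ) * t) * H l m := by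
  simpa [lx, ulev, pev, mev, uev, mul_comm t] using usound t 0 l m (c_tor r)

theorem n_x {r : Fin 12} (hr : r ∈ [7, 6, 11]) (s : Fin 12) (t : F) :
    n r * x s t = x (wt r s).1 ((wt r s).2 * t) * n r := by
  simpa [lx, ln, n, ulev, pev, mev, mul_assoc] using usound t 0 1 1 (c_wt r hr s)

theorem x_x {r s : Fin 12} (h : 6 ≤ r ∧ 6 ≤ s ∨ r ∈ [7, 4] ∧ s ∈ [11, 0]) (t u : F) : x r t * x s u =
    x s u * ((cm r s).map fun k => x k.1 (k.2.1 * (t ^ k.2.2.1 * u ^ k.2.2.2))).prod * x r t := by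
  simpa [lx, ulev, pev, mev, mul_assoc, Function.comp_def] using usound t u 1 1 (c_cm r s h)

theorem braid : (n 7 * (n 6 * (n 7 * (n 6 * (n 7 * n 6)))) : GL Ix F) = n 6 * (n 7 * (n 6 * (n 7 * (n 6 * n 7)))) := by
  simpa [lx, ln, n, ulev, pev, mev, mul_assoc] using usound (0 : F) 0 1 1 (by decide +kernel :
    chk (ln 7 ++ ln 6 ++ ln 7 ++ ln 6 ++ ln 7 ++ ln 6) (ln 6 ++ ln 7 ++ ln 6 ++ ln 7 ++ ln 6 ++ ln 7) = true)

theorem w_five : (n 6 * (n 7 * (n 6 * (n 7 * n 6))) : GL Ix F) = n 11 * H 1 (-1) := by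
  simpa [lx, ln, n, ulev, pev, mev, uev, mul_assoc] using usound (0 : F) 0 1 1 (by decide +kernel :
    chk (ln 6 ++ ln 7 ++ ln 6 ++ ln 7 ++ ln 6) (ln 11 ++ [.inr (0, (1, 0, 0))]) = true)

theorem n_n : (n 7 * n 7 : GL Ix F) = H 1 (-1) ∧ (n 6 * n 6 : GL Ix F) = H (-1) 1 ∧
    (n 11 * n 11 : GL Ix F) = H 1 (-1) := by
  have : chk (ln 7 ++ ln 7) [.inr (0, (1, 0, 0))] = true ∧ chk (ln 6 ++ ln 6) [.inr ((1, 0, 0), 0)] = true ∧
    chk (ln 11 ++ ln 11) [.inr (0, (1, 0, 0))] = true := by decide +kernel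
  refine ⟨?_, ?_, ?_⟩
  · simpa [lx, ln, n, ulev, pev, mev, uev, mul_assoc] using usound (0 : F) 0 1 1 this.1
  · simpa [lx, ln, n, ulev, pev, mev, uev, mul_assoc] using usound (0 : F) 0 1 1 this.2.1
  · simpa [lx, ln, n, ulev, pev, mev, uev, mul_assoc] using usound (0 : F) 0 1 1 this.2.2

theorem n_H (l m : Fˣ) : n 7 * H l m = H l⁻¹ (l ^ 3 * m) * n 7 ∧ n 6 * H l m = H (l * m) m⁻¹ * n 6 ∧
    n 11 * H l m = H l ((l ^ 3)⁻¹ * m⁻¹) * n 11 := by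
  have : chk (ln 7 ++ [.inr ((0, 1, 0), (0, 0, 1))]) (.inr ((0, -1, 0), (0, 3, 1)) :: ln 7) = true ∧
    chk (ln 6 ++ [.inr ((0, 1, 0), (0, 0, 1))]) (.inr ((0, 1, 1), (0, 0, -1)) :: ln 6) = true ∧
    chk (ln 11 ++ [.inr ((0, 1, 0), (0, 0, 1))]) (.inr ((0, 1, 0), (0, -3, -1)) :: ln 11) = true := by decide +kernel
  refine ⟨?_, ?_, ?_⟩
  · simpa [lx, ln, n, ulev, pev, mev, uev, mul_assoc] using usound (0 : F) 0 l m this.1
  · simpa [lx, ln, n, ulev, pev, mev, uev, mul_assoc] using usound (0 : F) 0 l m this.2.1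
  · simpa [lx, ln, n, ulev, pev, mev, uev, mul_assoc] using usound (0 : F) 0 l m this.2.2

/-- the word for `n x n` -/
def lnxn (r : Fin 12) (a b : ℤ) : Bool := chk (ln r ++ lx r 1 (0, 0, 1, 0) :: ln r)
  (lx r (-1) (0, 0, -1, 0) :: ln r ++ [.inr ((a.natAbs, a, 0), (b.natAbs, b, 0)), lx r (-1) (0, 0, -1, 0)]) &&
  chk ([lx r 1 (0, 0, 1, 0), lx r.rev (-1) (0, 0, -1, 0), lx r 1 (0, 0, 1, 0)]) (.inr ((0, a, 0), (0, b, 0)) :: ln r)

theorem n_x_n {r : Fin 12} {a b : ℤ} (h : (r, a, b) ∈ [(7, 2, -3), (6, -1, 2), (11, 0, 1)]) (l : Fˣ) :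
    n r * x r (l : F) * n r = x r (-(l : F)⁻¹) * n r * H ((-1) ^ a.natAbs * l ^ a) ((-1) ^ b.natAbs * l ^ b) *
      x r (-(l : F)⁻¹) ∧ x r (l : F) * x r.rev (-(l : F)⁻¹) * x r (l : F) = H (l ^ a) (l ^ b) * n r := by
  have := Bool.and_eq_true_iff.1 ((by decide +kernel : ∀ p ∈ [((7 : Fin 12), (2 : ℤ), (-3 : ℤ)), (6, -1, 2), (11, 0, 1)],
    lnxn p.1 p.2.1 p.2.2 = true) _ h)
  constructor
  · simpa [lx, ln, n, ulev, pev, mev, uev, mul_assoc] using usound (0 : F) 0 l 1 this.1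
  · simpa [lx, ln, n, ulev, pev, mev, uev, mul_assoc] using usound (0 : F) 0 l 1 this.2

theorem x_inj {t : F} (h : x 11 t = 1 ∨ x 11 t = x 0 (-t)) : t = 0 := by
  rcases h with h | h <;> have := congrArg (fun g : GL Ix F => g.1 (.inr 11) (.inl 1)) h
  · simpa [x, X_rl, chevG2CartanSR] using this
  · simpa [x, X_rl, chevG2CartanSR] using this

theorem exists_psi1 : ∃ ψ : GL (Fin 2) F →* GL Ix F, (∀ t h, ψ (gl 1 t 0 1 h) = x 7 t) ∧
    (∀ (a b : Fˣ) h, ψ (gl a 0 0 b h) = H (a * b⁻¹) (a⁻¹ * b ^ 2)) ∧ ∀ h, ψ (gl 0 1 (-1) 0 h) = n 7 :=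
  exists_gl2_hom _ _ _ (x_add 7) (fun a b a' b' => by rw [H_mul]; congr 1 <;> ext <;> simp <;> ring)
    (fun a b t => by rw [H_x]; simp [cf, div_eq_mul_inv])
    (fun a b => by rw [(n_H _ _).1]; congr 2 <;> ext <;> simp <;> field_simp)
    (by simpa using n_n.1) fun l => by
      rw [(n_x_n (a := 2) (b := -3) (by simp) l).1]; congr 3 <;> ext <;> simp <;> field_simp

theorem exists_psi2 : ∃ ψ : GL (Fin 2) F →* GL Ix F, (∀ t h, ψ (gl 1 t 0 1 h) = x 11 t) ∧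
    (∀ (a b : Fˣ) h, ψ (gl a 0 0 b h) = H (a * b) (a⁻¹ * b⁻¹ ^ 2)) ∧ ∀ h, ψ (gl 0 1 (-1) 0 h) = n 11 :=
  exists_gl2_hom _ _ _ (x_add 11) (fun a b a' b' => by rw [H_mul]; congr 1 <;> ext <;> simp <;> ring)
    (fun a b t => by rw [H_x]; congr 3; simp [cf]; field_simp)
    (fun a b => by rw [(n_H _ _).2.2]; congr 2 <;> ext <;> simp <;> field_simp)
    (by simpa using n_n.2.2) fun l => by
      rw [(n_x_n (a := 0) (b := 1) (by simp) l).1]; congr 3 <;> ext <;> simp <;> field_simp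

end Cfsg.Lib.G2
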