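import Cfsg.Agent.Lib.Hay.Sec3

/-!
A model for the Sylow `2`-subgroups of `G₂(q)`, `q` odd.
-/

set_option autoImplicit false

namespace Cfsg.Lib.G2

open Subgroup

/-- coordinates -/
abbrev Zn (n : ℕ) : Type := ZMod (2 ^ (n + 2))

/-- `(ℤ/2ⁿ⁺²)²` extended by inversion and interchange -/
@[ext] structure Tw (n : ℕ) where
  /-- first coordinate -/
  x : Zn n
  /-- second coordinate -/
  y : Zn n
  /-- inversion -/
  e : Bool
  /-- interchange -/
  d : Bool

variable {n : ℕ}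

theorem k_four : 4 * (2 ^ n : Zn n) = 0 := by
  have := ZMod.natCast_self (2 ^ (n + 2))
  push_cast at this
  linear_combination this

theorem k_two : 2 * (2 ^ n : Zn n) ≠ 0 := fun h => by
  have := (ZMod.natCast_eq_zero_iff (2 ^ (n + 1)) (2 ^ (n + 2))).1 (by push_cast; linear_combination h)
  exact absurd (Nat.le_of_dvd (by positivity) this) (by simp [Nat.pow_lt_pow_right])

theorem k_half {x : Zn n} (h : 2 * x = 0) : x = 0 ∨ x = 2 * 2 ^ n := by
  obtain ⟨i, rfl⟩ := ZMod.natCast_zmod_surjective x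
  obtain ⟨j, rfl⟩ : 2 ^ (n + 1) ∣ i := Nat.dvd_of_mul_dvd_mul_left two_pos (by
    rw [← pow_succ']; exact (ZMod.natCast_eq_zero_iff (2 * i) _).1 (by push_cast; exact h))
  obtain ⟨j, rfl | rfl⟩ := Nat.even_or_odd' j <;> push_cast
  exacts [Or.inl (by linear_combination (j : Zn n) * k_four), Or.inr (by linear_combination (j : Zn n) * k_four)]

theorem k_par (x : Zn n) : ∃ y, x = 2 * y ∨ x = 2 * y + 1 := by
  obtain ⟨i, rfl⟩ := ZMod.natCast_zmod_surjective x
  obtain ⟨j, rfl | rfl⟩ := Nat.even_or_odd' i <;> exact ⟨j, by simp⟩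

theorem k_odd (y : Zn n) : 2 * y ≠ 1 := fun h => k_two (n := n) (by linear_combination y * k_four - 2 * 2 ^ n * h)

namespace Tw

instance : Mul (Tw n) := ⟨fun g h => ⟨g.x + (if g.e then -1 else 1) * (if g.d then h.y else h.x),
  g.y + (if g.e then -1 else 1) * (if g.d then h.x else h.y), xor g.e h.e, xor g.d h.d⟩⟩

instance : One (Tw n) := ⟨⟨0, 0, false, false⟩⟩

instance : Inv (Tw n) := ⟨fun g => ⟨(if g.e then 1 else -1) * (if g.d then g.y else g.x),
  (if g.e then 1 else -1) * (if g.d then g.x else g.y), g.e, g.d⟩⟩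

@[simp] theorem mk_mul (x y x' y' : Zn n) (e d e' d' : Bool) : (⟨x, y, e, d⟩ * ⟨x', y', e', d'⟩ : Tw n) =
  ⟨x + (if e then -1 else 1) * (if d then y' else x'), y + (if e then -1 else 1) * (if d then x' else y'),
    xor e e', xor d d'⟩ := rfl

theorem one_def : (1 : Tw n) = ⟨0, 0, false, false⟩ := rfl

@[simp] theorem mk_inv (x y : Zn n) (e d : Bool) : (⟨x, y, e, d⟩⁻¹ : Tw n) =
  ⟨(if e then 1 else -1) * (if d then y else x), (if e then 1 else -1) * (if d then x else y), e, d⟩ := rfl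

instance : Group (Tw n) := Group.ofLeftAxioms (by
    rintro ⟨_, _, _ | _, _ | _⟩ ⟨_, _, _ | _, _ | _⟩ ⟨_, _, _, _⟩ <;> simp <;> constructor <;> ring)
  (by rintro ⟨_, _, _, _⟩; simp [one_def]) (by rintro ⟨_, _, _ | _, _ | _⟩ <;> simp [one_def])

/-- coordinates -/
def eqv : Tw n ≃ Zn n × Zn n × Bool × Bool := ⟨fun g => (g.x, g.y, g.e, g.d), fun p => ⟨p.1, p.2.1, p.2.2.1, p.2.2.2⟩,
  fun _ => rfl, fun _ => rfl⟩

instance : Finite (Tw n) := .of_equiv _ eqv.symm

theorem card : Nat.card (Tw n) = 2 ^ (2 * n + 6) := by rw [Nat.card_congr eqv]; simp; ring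

theorem pg : IsPGroup 2 (Tw n) := .of_card card

@[simp] theorem mul_e (g h : Tw n) : (g * h).e = xor g.e h.e := rfl

@[simp] theorem mul_d (g h : Tw n) : (g * h).d = xor g.d h.d := rfl

@[simp] theorem inv_e (g : Tw n) : g⁻¹.e = g.e := rfl

@[simp] theorem inv_d (g : Tw n) : g⁻¹.d = g.d := rfl

/-- the central involution -/
def tz : Tw n := ⟨2 * 2 ^ n, 2 * 2 ^ n, false, false⟩

/-- a non-central involution of the abelian subgroup -/
def t1 : Tw n := ⟨2 * 2 ^ n, 0, false, false⟩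

theorem neg_k : -(2 * 2 ^ n : Zn n) = 2 * 2 ^ n := by linear_combination -k_four

theorem z_comm (g : Tw n) : g * tz = tz * g := by
  rcases g with ⟨_, _, _ | _, _ | _⟩ <;> simp [tz, add_comm, neg_k]

theorem z_mul_z : (tz * tz : Tw n) = 1 := by simp [tz, one_def]; linear_combination k_four

theorem z_ne : (tz : Tw n) ≠ 1 := by simp [tz, one_def, k_two]

theorem central {s : Tw n} (h : ∀ g, g * s = s * g) : s = 1 ∨ s = tz := by
  have h1 := h ⟨1, 0, false, false⟩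
  have h2 := h ⟨0, 0, true, false⟩
  have h3 := h ⟨0, 0, false, true⟩
  have k : (2 : Zn n) ≠ 0 := fun h => k_two (n := n) (by rw [h, zero_mul])
  rcases s with ⟨x, y, _ | _, _ | _⟩ <;> simp [tz, one_def] at h1 h2 h3 ⊢
  · rw [← h3.1, and_self, and_self]; exact k_half (by linear_combination -h2.2)
  · exact k (by linear_combination 2 * h1)
  · exact k (by linear_combination h1)
  · exact k (by linear_combination 2 * h1)

theorem exists_hom {Γ : Type*} [Group Γ] {a b u v : Γ} (ha : a ^ 2 ^ (n + 2) = 1) (ab : Commute a b)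
    (ua : u * a * u⁻¹ = a⁻¹) (va : v * a * v⁻¹ = b) (uu : u * u = 1) (vv : v * v = 1) (uv : Commute u v)
    (h : (a * b) ^ 2 ^ (n + 1) ≠ 1) : ∃ f : Tw n →* Γ, Function.Injective f ∧ f tz = (a * b) ^ 2 ^ (n + 1) ∧
      f.range ≤ closure {a, u, v} := by
  have vb : v * b * v⁻¹ = a := by rw [← va, ← mul_assoc, ← mul_assoc, vv, mul_assoc, ← mul_inv_rev, vv]; simp
  have ub : u * b * u⁻¹ = b⁻¹ := by
    rw [← va, ← mul_assoc, ← mul_assoc, uv.eq, mul_assoc, ← mul_inv_rev, uv.eq, mul_inv_rev, ← mul_assoc, mul_assoc v,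
      mul_assoc v, ua, conj_inv]
  have hb : b ^ 2 ^ (n + 2) = 1 := by rw [← va, conj_pow, ha]; simp
  have ad : ∀ {c : Γ}, c ^ 2 ^ (n + 2) = 1 → ∀ x y : Zn n, c ^ (x + y).val = c ^ x.val * c ^ y.val := fun h x y => by
    rw [ZMod.val_add, ← pow_eq_pow_mod _ h, pow_add]
  have ng : ∀ {c : Γ}, c ^ 2 ^ (n + 2) = 1 → ∀ x : Zn n, c ^ (-x).val = (c ^ x.val)⁻¹ := fun h x =>
    eq_inv_of_mul_eq_one_left (by rw [← ad h]; simp)
  have sw : ∀ {w c c' : Γ} (i : ℕ) (r : Γ), w * c * w⁻¹ = c' → w * (c ^ i * r) = c' ^ i * (w * r) := fun i r h => by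
    rw [← h, conj_pow]; group
  have cm : ∀ (i j : ℕ) (r : Γ), b ^ i * (a ^ j * r) = a ^ j * (b ^ i * r) := fun i j r => by
    rw [← mul_assoc, ← (ab.pow_pow j i).eq, mul_assoc]
  have cm' : ∀ (i j : ℕ) (r : Γ), b ^ i * ((a ^ j)⁻¹ * r) = (a ^ j)⁻¹ * (b ^ i * r) := fun i j r => by
    rw [← mul_assoc, ← (ab.pow_pow j i).inv_left.eq, mul_assoc]
  have cm'' : ∀ (i j : ℕ) (r : Γ), (b ^ i)⁻¹ * ((a ^ j)⁻¹ * r) = (a ^ j)⁻¹ * ((b ^ i)⁻¹ * r) := fun i j r => by
    rw [← mul_assoc, ← (ab.pow_pow j i).inv_inv.eq, mul_assoc]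
  have u2 : ∀ r, u * (u * r) = r := fun r => by rw [← mul_assoc, uu, one_mul]
  have vu : ∀ r, v * (u * r) = u * (v * r) := fun r => by rw [← mul_assoc, ← uv.eq, mul_assoc]
  have v2 : ∀ r, v * (v * r) = r := fun r => by rw [← mul_assoc, vv, one_mul]
  have key : ∀ (g h : Tw n) (r : Γ), a ^ (g * h).x.val * (b ^ (g * h).y.val * ((if (g * h).e then u else 1) *
      (if (g * h).d then v else 1))) * r = a ^ g.x.val * (b ^ g.y.val * ((if g.e then u else 1) * (if g.d then v else 1))) *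
      (a ^ h.x.val * (b ^ h.y.val * ((if h.e then u else 1) * (if h.d then v else 1)))) * r := by
    rintro ⟨x, y, _ | _, _ | _⟩ ⟨x', y', _ | _, _ | _⟩ r <;>
      simp [ad ha, ad hb, ng ha, ng hb, mul_assoc, sw _ _ ua, sw _ _ ub, sw _ _ va, sw _ _ vb, cm, cm', cm'', u2, vu, v2]
  let f : Tw n →* Γ := MonoidHom.mk' (fun g => a ^ g.x.val * (b ^ g.y.val * ((if g.e then u else 1) *
    (if g.d then v else 1)))) fun g h => mul_right_cancel (key g h 1)
  have e : f tz = (a * b) ^ 2 ^ (n + 1) := by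
    have : (2 * 2 ^ n : Zn n).val = 2 ^ (n + 1) := by
      rw [← ZMod.val_cast_of_lt (n := 2 ^ (n + 2)) (a := 2 ^ (n + 1)) (by simp [Nat.pow_lt_pow_right])]
      congr 1; push_cast; ring
    simp [f, tz, this, ab.mul_pow]
  refine ⟨f, (MonoidHom.ker_eq_bot_iff f).1 (by_contra fun hne => ?_), e, ?_⟩
  · obtain ⟨⟨s, h1, h2⟩, h3⟩ := ne_bot_iff_exists_ne_one.1 (pg_inf_center_ne_bot pg f.ker hne)
    obtain rfl | rfl := central (mem_center_iff.1 h2)
    exacts [h3 rfl, h (e ▸ h1)]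
  · rintro _ ⟨g, rfl⟩
    have h1 : a ∈ closure {a, u, v} := subset_closure (by simp)
    have h2 : u ∈ closure {a, u, v} := subset_closure (by simp)
    have h3 : v ∈ closure {a, u, v} := subset_closure (by simp)
    refine mul_mem (pow_mem h1 _) (mul_mem (pow_mem (va ▸ mul_mem (mul_mem h3 h1) (inv_mem h3)) _) (mul_mem ?_ ?_)) <;>
      split_ifs <;> first | assumption | exact one_mem _

end Tw

end Cfsg.Lib.G2
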