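import Cfsg.Agent.Lib.G2.Cent
import Cfsg.Agent.Lib.G2.Tw
import Cfsg.Agent.Lib.Misc.SL2Odd

/-!
The Sylow `2`-subgroups of `G₂(q)`, `q` odd.
-/

set_option autoImplicit false

namespace Cfsg.Lib.G2

open Cfsg.Lie Cfsg.Lib.Hay Cfsg.Lib.Quad Subgroup Matrix.SpecialLinearGroup
open scoped MatrixGroups

variable {F : Type*} [Field F]

theorem sl2_res [Finite F] (h2 : (2 : F) ≠ 0) : pResidual 2 SL(2, F) = ⊤ := by
  have ho : Odd (ringChar F) := (CharP.char_is_prime F _).odd_of_ne_two fun h =>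
    h2 (by simpa [h] using ringChar.Nat.cast_ringChar (R := F))
  refine eq_top_iff.2 fun A _ => sl2_induction (· ∈ pResidual 2 SL(2, F)) (fun c => ?_) (fun c => ?_)
    (fun _ _ => mul_mem) A <;> refine mem_pResidual_of_coprime (Nat.coprime_two_right.2 (ho.of_dvd_nat
      (orderOf_dvd_of_pow_eq_one ?_)))
  · rw [upT_pow, ringChar.Nat.cast_ringChar, zero_mul, upT_zero]
  · rw [loT_pow, ringChar.Nat.cast_ringChar, zero_mul, loT_zero]

theorem exists_quat [Finite F] (h2 : (2 : F) ≠ 0) : ∃ (n : ℕ) (ρ σ : SL(2, F)), ρ ^ 2 ^ (n + 1) = -1 ∧ σ * σ = -1 ∧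
    σ * ρ * σ⁻¹ = ρ⁻¹ ∧ (Nat.card SL(2, F)).factorization 2 = n + 3 := by
  obtain ⟨P⟩ : Nonempty (Sylow 2 SL(2, F)) := inferInstance
  have k : ∀ y : P, orderOf y = 2 → (y : SL(2, F)) = -1 := fun y hy =>
    (h9_sl2_sq_eq_one h2 (congrArg Subtype.val ((sq y).symm.trans (orderOf_dvd_iff_pow_eq_one.1 hy.dvd)))).resolve_left
      fun h => by rw [← orderOf_coe, h] at hy; simp at hy
  obtain h | ⟨m, a, b, hm, h1, h3, -, -, h4, h5⟩ := pg_two_group_unique_involution P.isPGroup'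
    fun y y' h h' => Subtype.ext ((k y h).trans (k y' h').symm)
  · exact ((hasNormalPComplement_two_of_isCyclic P h).pResidual_ne_top ((orderOf_eq_prime (x := (-1 : SL(2, F)))
      neg_one_sq (h9_sl2_neg_one_ne_one h2)).symm.dvd.trans (orderOf_dvd_natCard _)) (sl2_res h2)).elim
  obtain ⟨n, rfl⟩ : ∃ n, m = n + 1 := ⟨m - 1, by omega⟩
  have e := k (a ^ 2 ^ (n + 1)) (by
    rw [orderOf_pow' _ (by positivity), h3, Nat.gcd_eq_right (pow_dvd_pow 2 (Nat.le_succ _)), pow_succ,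
      Nat.mul_div_cancel_left _ (by positivity)])
  refine ⟨n, a, b, e, ?_, congrArg Subtype.val h5, Nat.pow_right_injective le_rfl (P.card_eq_multiplicity.symm.trans h1)⟩
  rw [← e, ← h4, sq]; rfl

theorem exists_tw_of {K Γ : Type*} [Group K] [Group Γ] {φ₁ φ₂ : K →* Γ} (c : ∀ s t, Commute (φ₁ s) (φ₂ t)) {n : ℕ}
    {ρ σ ι : K} {a : Γ} (h1 : ρ ^ 2 ^ (n + 1) = ι) (h2 : σ * σ = ι) (h3 : σ * ρ * σ⁻¹ = ρ⁻¹) (e : φ₂ ι = φ₁ ι)
    (e' : φ₁ ι ≠ 1) (r1 : a * φ₁ ρ = φ₁ ρ * a) (r2 : a * φ₂ ρ = φ₂ ρ * a) (s1 : a * φ₁ σ = φ₁ (ρ * σ) * a)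
    (s2 : a * φ₂ σ = φ₂ (ρ * σ) * a) (aa : a * a = φ₂ ρ * φ₁ ρ) : ∃ f : Tw n →* Γ, Function.Injective f ∧
      f Tw.tz = φ₁ ι ∧ ∀ X : Subgroup Γ, a ∈ X → φ₁.range ≤ X → φ₂.range ≤ X → f.range ≤ X := by
  obtain ⟨i, hi⟩ : ∃ i, ρ ^ 2 ^ n = i := ⟨_, rfl⟩
  have ii : i * i = ι := by rw [← hi, ← pow_add, ← h1]; congr 1; ring
  have si : σ * i = i⁻¹ * σ := by rw [← hi, ← inv_pow, ← h3, conj_pow]; group
  have ι2 : ι * ι = 1 := by
    have : σ * ι * σ⁻¹ = ι⁻¹ := by rw [← h1, ← conj_pow, h3, inv_pow]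
    rw [← h2, mul_assoc σ, mul_inv_cancel_right, h2] at this
    exact mul_eq_one_iff_eq_inv.2 this
  have i1 : Commute (φ₁ i) a := by rw [← hi, map_pow]; exact Commute.pow_left r1.symm _
  have i2 : Commute (φ₂ i) a := by rw [← hi, map_pow]; exact Commute.pow_left r2.symm _
  have t : ∀ φ : K →* Γ, a * φ σ = φ (ρ * σ) * a → φ σ * a * (φ σ)⁻¹ = (φ ρ)⁻¹ * a := fun φ h => by
    rw [mul_inv_eq_iff_eq_mul, mul_assoc, h, map_mul]; group
  have ab : a * ((φ₂ ρ)⁻¹ * a) = φ₁ ρ := by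
    rw [← mul_assoc, (Commute.inv_right r2).eq, mul_assoc, aa, inv_mul_cancel_left]
  have m : ∀ s t s' t', φ₁ s * φ₂ t * (φ₁ s' * φ₂ t') = φ₁ (s * s') * φ₂ (t * t') := fun s t s' t' => by
    rw [(c s' t).symm.mul_mul_mul_comm, map_mul, map_mul]
  have z : φ₁ ι * φ₂ ι = 1 := by rw [e, ← map_mul, ι2, map_one]
  obtain ⟨f, f1, f2, f3⟩ := Tw.exists_hom (n := n) (a := a) (b := (φ₂ ρ)⁻¹ * a) (u := φ₁ σ * φ₂ (σ * i))
    (v := φ₁ i * φ₂ σ) (by
      rw [pow_succ', pow_mul, sq, aa, (c ρ ρ).symm.mul_pow, ← map_pow, ← map_pow, h1, ← (c _ _).eq, z])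
    ((Commute.inv_right r2).mul_right (.refl a)) (by
      calc _ = φ₁ σ * (φ₂ σ * (φ₂ i * a * (φ₂ i)⁻¹) * (φ₂ σ)⁻¹) * (φ₁ σ)⁻¹ := by rw [map_mul]; group
        _ = (φ₂ ρ)⁻¹ * (φ₁ σ * a * (φ₁ σ)⁻¹) := by
          rw [i2.eq, mul_inv_cancel_right, t _ s2, ← mul_assoc, (c σ ρ).inv_right.eq]; group
        _ = (φ₂ ρ * φ₁ ρ)⁻¹ * a := by rw [t _ s1, ← (c ρ ρ).eq]; group
        _ = _ := by rw [← aa]; group) (by
      calc _ = φ₁ i * (φ₂ σ * a * (φ₂ σ)⁻¹) * (φ₁ i)⁻¹ := by group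
        _ = _ := by rw [t _ s2, ((c i ρ).inv_right.mul_right i1).eq, mul_inv_cancel_right])
    (by rw [m, h2, show σ * i * (σ * i) = ι by nth_rw 1 [si]; rw [mul_assoc, ← mul_assoc σ, h2, ← ii]; group, z])
    (by rw [m, ii, h2, z]) (by
      change _ = _
      have i' : i⁻¹ = i * ι := inv_eq_of_mul_eq_one_right (by rw [← mul_assoc, ii, ι2])
      rw [m, m, ← mul_assoc σ σ, h2, map_mul φ₂ ι, e, ← mul_assoc, ← map_mul, si, mul_assoc _ σ σ, h2, i',
        mul_assoc i ι ι, ι2, mul_one, ← h2]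
      simp only [mul_assoc]) (by rwa [ab, ← map_pow, h1])
  exact ⟨f, f1, by rw [f2, ab, ← map_pow, h1], fun X h h1 h2 => f3.trans ((closure_le _).2 (by
    rintro _ (rfl | rfl | rfl)
    exacts [h, mul_mem (h1 ⟨_, rfl⟩) (h2 ⟨_, rfl⟩), mul_mem (h1 ⟨_, rfl⟩) (h2 ⟨_, rfl⟩)]))⟩

/-- diagonal matrices -/
def dg (a b : Fˣ) : GL (Fin 2) F := gl a 0 0 b (by simp)

theorem dg_mul (a b a' b' : Fˣ) : dg a b * dg a' b' = dg (a * a') (b * b') := by
  rw [dg, dg, gl_mul]; exact gl_ext (by simp) (by simp) (by simp) (by simp)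

theorem dg_one : dg (1 : Fˣ) 1 = 1 := gl_one

theorem exists_sl {g : GL (Fin 2) F} (h : Matrix.GeneralLinearGroup.det g = 1) : ∃ s : SL(2, F), toGL s = g :=
  ⟨⟨g, congrArg Units.val h⟩, Units.ext rfl⟩

theorem exists_dec (g : GL (Fin 2) F) : ∃ s : SL(2, F), toGL s * dg (Matrix.GeneralLinearGroup.det g) 1 = g := by
  obtain ⟨s, h⟩ := exists_sl (g := g * (dg (Matrix.GeneralLinearGroup.det g) 1)⁻¹) (by
    rw [map_mul, map_inv, mul_inv_eq_one]; ext; simp [dg, gl_coe])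
  exact ⟨s, by rw [h, inv_mul_cancel_right]⟩

theorem sl_ind {K : Subgroup (GL (Fin 2) F)} (h1 : ∀ t h, gl 1 t 0 1 h ∈ K) (h3 : ∀ h, gl 0 1 (-1) 0 h ∈ K)
    (s : SL(2, F)) : toGL s ∈ K := sl2_induction (toGL · ∈ K) (fun c => by
  convert h1 c (by simp) using 1; exact Units.ext rfl) (fun c => by
  convert mul_mem (mul_mem (mul_mem (mul_mem (h3 (by simp)) (h1 (-c) (by simp))) (h3 (by simp))) (h3 (by simp)))
    (h3 (by simp)) using 1
  simp only [gl_mul]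
  refine (show toGL (loT c) = gl 1 0 c 1 (by simp) from Units.ext rfl).trans (gl_ext ?_ ?_ ?_ ?_) <;> simp)
  (fun _ _ h h' => by rw [map_mul]; exact mul_mem h h') s

variable (F) in
/-- the Chevalley group -/
def GG : Subgroup (GL Ix F) := chevG2.group F

theorem x_G (r : Fin 12) (t : F) : x r t ∈ GG F := subset_closure ⟨r, t, rfl⟩

theorem n_G (r : Fin 12) : n r ∈ GG F := mul_mem (x_G _ _) (mul_mem (x_G _ _) (x_G _ _))

theorem H_G (l m : Fˣ) : H l m ∈ GG F := by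
  have k : ∀ {r : Fin 12} {a b : ℤ}, (r, a, b) ∈ [(7, 2, -3), (6, -1, 2), (11, 0, 1)] → ∀ l : Fˣ,
      H (l ^ a) (l ^ b) ∈ GG F := fun h l => (mul_mem_cancel_right (n_G _)).1
    ((n_x_n h l).2 ▸ mul_mem (mul_mem (x_G _ _) (x_G _ _)) (x_G _ _))
  convert mul_mem (k (r := 6) (a := -1) (b := 2) (by simp) l⁻¹) (k (r := 11) (a := 0) (b := 1) (by simp) (l ^ 2 * m))
    using 1
  rw [H_mul]; congr 1 <;> simp [zpow_ofNat]

theorem j_ne (h2 : (2 : F) ≠ 0) : H (1 : Fˣ) (-1) ≠ 1 := fun h => h2 (by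
  have := congrArg (fun g : GL Ix F => g.1 (.inr 6) (.inr 6)) h
  simp [H, Hm, cf] at this
  linear_combination -this)

theorem exists_tw [Fintype F] (hF : Odd (Fintype.card F)) (P : Sylow 2 (GG F)) :
    ∃ n, Nonempty (P ≃* Tw n) := by
  have h2 := h9_two_ne_zero_of_odd_card hF
  obtain ⟨ψ₁, a1, a2, a3⟩ := exists_psi1 (F := F)
  obtain ⟨ψ₂, b1, b2, b3⟩ := exists_psi2 (F := F)
  obtain ⟨n, ρ, σ, h1, h3, h4, h5⟩ := exists_quat h2
  have c : ∀ s t : SL(2, F), Commute (ψ₁ (toGL s)) (ψ₂ (toGL t)) := fun s t => by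
    have k : ∀ r ∈ [7, 4], ∀ u : F, ψ₂ (toGL t) ∈ centralizer {x r u} := fun r hr u => by
      have : ∀ s ∈ [11, 0], ∀ t : F, x s t ∈ centralizer {x r u} := fun s hs t =>
        mem_centralizer_singleton_iff.2 (x_comm ⟨Or.inr ⟨hr, hs⟩, by revert r s; decide⟩ u t).symm
      exact sl_ind (K := (centralizer {x r u}).comap ψ₂) (fun t h => by rw [mem_comap, b1]; exact this _ (by simp) _)
        (fun h => by
          rw [mem_comap, b3]; exact mul_mem (this _ (by simp) _) (mul_mem (this _ (by simp) _) (this _ (by simp) _))) t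
    have : ∀ r ∈ [7, 4], ∀ u : F, x r u ∈ centralizer {ψ₂ (toGL t)} := fun r hr u =>
      mem_centralizer_singleton_iff.2 (mem_centralizer_singleton_iff.1 (k r hr u)).symm
    exact mem_centralizer_singleton_iff.1 (sl_ind (K := (centralizer {ψ₂ (toGL t)}).comap ψ₁)
      (fun t h => by rw [mem_comap, a1]; exact this _ (by simp) _) (fun h => by
        rw [mem_comap, a3]; exact mul_mem (this _ (by simp) _) (mul_mem (this _ (by simp) _) (this _ (by simp) _))) s)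
  have d1 : ∀ l : Fˣ, ψ₂ (dg l 1) = ψ₁ (dg l 1) := fun l => by rw [dg, a2, b2]; simp
  have d2 : ∀ l : Fˣ, ψ₂ (dg 1 l) = ψ₁ (dg 1 l⁻¹) := fun l => by rw [dg, dg, a2, b2]; simp
  have m1 : (toGL (-1 : SL(2, F))) = dg (-1) (-1) := by ext i j; fin_cases i <;> fin_cases j <;> simp [dg, gl_coe]
  have j1 : ψ₁ (toGL (-1)) = H 1 (-1) := by rw [m1, dg, a2]; simp
  have j2 : ψ₂ (toGL (-1)) = H 1 (-1) := by rw [m1, dg, b2]; simp
  obtain ⟨ω, δ, o1, o2, o3, o4⟩ : ∃ (ω : GL (Fin 2) F) (δ : Fˣ), Matrix.GeneralLinearGroup.det ω = δ ∧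
      ω * toGL ρ = toGL ρ * ω ∧ ω * toGL σ = toGL (ρ * σ) * ω ∧ ω * ω = toGL ρ * dg δ δ := by
    have q := sl2_sq ρ
    have e : (1 + ρ.1).det = 2 + ρ.1.trace := by
      have := ρ.2
      simp only [Matrix.det_fin_two, Matrix.trace_fin_two, Matrix.add_apply, Matrix.one_apply] at this ⊢
      simp; linear_combination this
    have e' : (1 + ρ.1) * (1 + ρ.1) = (2 + ρ.1.trace) • ρ.1 := by
      rw [add_mul, mul_add, mul_add, q]; simp only [add_smul, mul_one, one_mul, two_smul]; abel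
    have hd : (1 + ρ.1).det ≠ 0 := fun h => by
      have := congrArg Matrix.det (mul_geom_sum (-ρ.1) (2 ^ (n + 1)))
      rw [Even.neg_pow (by simp [pow_succ]), show ρ.1 ^ 2 ^ (n + 1) = -1 by simpa using congrArg Subtype.val h1,
        show -ρ.1 - 1 = -(1 + ρ.1) by abel, Matrix.det_mul, Matrix.det_neg, h] at this
      simp [Matrix.det_fin_two] at this
      exact h2 (by linear_combination -this)
    refine ⟨.mkOfDetNeZero _ hd, _, rfl, Units.ext ?_, Units.ext ?_, Units.ext ?_⟩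
    · simp [add_mul, mul_add]
    · have := congrArg Subtype.val (show ρ * σ * ρ = σ by rw [mul_assoc, mul_inv_eq_iff_eq_mul.1 h4]; group)
      simp [add_mul, mul_add] at this ⊢
      rw [this, add_comm]
    · change (1 + ρ.1) * (1 + ρ.1) = ρ.1 * !![(1 + ρ.1).det, 0; 0, (1 + ρ.1).det]
      rw [e', e]
      ext i j; fin_cases i <;> fin_cases j <;> simp [Matrix.mul_apply, mul_comm]
  obtain ⟨w, hw⟩ := exists_dec ω
  rw [o1] at hw
  have a' : ψ₁ (toGL w) * ψ₂ ω = ψ₂ (toGL w) * ψ₁ ω := by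
    rw [← hw, map_mul, map_mul, ← mul_assoc, ← mul_assoc, (c w w).eq, d1]
  have r1 : ∀ s t : SL(2, F), ω * toGL s = toGL t * ω → ψ₁ (toGL w) * ψ₂ ω * ψ₁ (toGL s) =
      ψ₁ (toGL t) * (ψ₁ (toGL w) * ψ₂ ω) := fun s t h => by
    rw [a', mul_assoc, ← map_mul, h, map_mul, ← mul_assoc, ← (c t w).eq, mul_assoc]
  have r2 : ∀ s t : SL(2, F), ω * toGL s = toGL t * ω → ψ₁ (toGL w) * ψ₂ ω * ψ₂ (toGL s) =
      ψ₂ (toGL t) * (ψ₁ (toGL w) * ψ₂ ω) := fun s t h => by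
    rw [mul_assoc, ← map_mul, h, map_mul, ← mul_assoc, (c w t).eq, mul_assoc]
  obtain ⟨f, f1, f2, f3⟩ := exists_tw_of (φ₁ := ψ₁.comp toGL) (φ₂ := ψ₂.comp toGL) c h1 h3 h4 (j2.trans j1.symm)
    (fun h => j_ne h2 (j1.symm.trans h)) (r1 _ _ o2) (r2 _ _ o2) (r1 _ _ o3) (r2 _ _ o3) (by
      have e : ω * toGL w = toGL ρ * dg 1 δ := mul_right_cancel (b := dg δ 1) (by
        rw [mul_assoc, hw, o4, mul_assoc, dg_mul, one_mul, mul_one])
      have z : ∀ g : GL (Fin 2) F, dg δ δ * g = g * dg δ δ := fun g => by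
        ext i j; fin_cases i <;> fin_cases j <;> simp [dg, gl_coe, Matrix.mul_apply, Matrix.vecMul, mul_comm]
      have e' : toGL w * dg 1 δ⁻¹ * ω = toGL ρ := mul_right_cancel (b := dg δ δ) (by
        rw [mul_assoc, ← z, ← mul_assoc, mul_assoc (toGL w), dg_mul, one_mul, inv_mul_cancel, hw, o4])
      nth_rw 2 [a']
      rw [mul_assoc, ← mul_assoc (ψ₂ ω), ← map_mul, e, map_mul, d2, ← mul_assoc, ← mul_assoc, (c w ρ).eq, mul_assoc,
        mul_assoc, ← map_mul, ← map_mul, ← mul_assoc, e']; rfl)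
  have g1 : ∀ g, ψ₁ g ∈ GG F := gl_ind (K := (GG F).comap ψ₁)
    (fun t h => by rw [mem_comap, a1]; exact x_G _ _) (fun a b h => by
      obtain ⟨ha, hb⟩ : a ≠ 0 ∧ b ≠ 0 := by simpa using h
      lift a to Fˣ using ha.isUnit; lift b to Fˣ using hb.isUnit
      rw [mem_comap, a2]; exact H_G _ _) fun h => by rw [mem_comap, a3]; exact n_G _
  have g2 : ∀ g, ψ₂ g ∈ GG F := gl_ind (K := (GG F).comap ψ₂)
    (fun t h => by rw [mem_comap, b1]; exact x_G _ _) (fun a b h => by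
      obtain ⟨ha, hb⟩ : a ≠ 0 ∧ b ≠ 0 := by simpa using h
      lift a to Fˣ using ha.isUnit; lift b to Fˣ using hb.isUnit
      rw [mem_comap, b2]; exact H_G _ _) fun h => by rw [mem_comap, b3]; exact n_G _
  have fG := f3 _ (mul_mem (g1 _) (g2 _)) (by rintro _ ⟨_, rfl⟩; exact g1 _) (by rintro _ ⟨_, rfl⟩; exact g2 _)
  have hn : ψ₂.range ≤ normalizer ((ψ₁.comp toGL).range : Set (GL Ix F)) := by
    rintro _ ⟨g, rfl⟩
    obtain ⟨s, e⟩ := exists_dec g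
    refine mem_normalizer_fintype ?_
    rintro _ ⟨t, rfl⟩
    obtain ⟨t', e'⟩ := exists_sl (g := dg (Matrix.GeneralLinearGroup.det g) 1 * toGL t *
      (dg (Matrix.GeneralLinearGroup.det g) 1)⁻¹) (by simp)
    refine ⟨t', eq_mul_inv_of_mul_eq ?_⟩
    rw [← e, map_mul, d1, MonoidHom.comp_apply, MonoidHom.comp_apply, ← mul_assoc, (c _ _).eq, mul_assoc, mul_assoc,
      ← map_mul, ← map_mul ψ₁, e', inv_mul_cancel_right]
  have cd : Nat.card ↥(ψ₂.range ⊔ (ψ₁.comp toGL).range) ∣ Nat.card SL(2, F) * Nat.card SL(2, F) := by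
    rw [card_sup_eq_mul_relIndex hn, ← index_comap]
    refine mul_dvd_mul (card_range_dvd _) ((index_dvd_of_le (H := (Matrix.GeneralLinearGroup.scalar (Fin 2)).range)
      ?_).trans (dvd_of_eq ?_))
    · rintro _ ⟨l, rfl⟩
      obtain ⟨s, hs⟩ := exists_sl (g := dg l l⁻¹) (by ext; simp [dg, gl_coe])
      refine ⟨s, ?_⟩
      rw [show Matrix.GeneralLinearGroup.scalar (Fin 2) l = dg l l by
        ext i j; fin_cases i <;> fin_cases j <;> simp [dg, gl_coe], MonoidHom.comp_apply, hs, dg, dg, a2, b2]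
      congr 1 <;> simp [sq]
    · refine Nat.eq_of_mul_eq_mul_left (Nat.card_pos (α := Fˣ)) ?_
      rw [h9_card_sl_mul, ← card_mul_index (Matrix.GeneralLinearGroup.scalar (Fin 2)).range,
        ← Nat.card_congr (MonoidHom.ofInjective (f := Matrix.GeneralLinearGroup.scalar (Fin 2)) fun l l' h =>
          Units.ext (by simpa using congrArg (fun g : GL (Fin 2) F => g 0 0) h)).toEquiv]
  have pf : IsPGroup 2 f.range := Tw.pg.of_surjective _ f.rangeRestrict_surjective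
  have cf : Nat.card f.range = 2 ^ (2 * n + 6) := by
    rw [← Tw.card, Nat.card_congr (MonoidHom.ofInjective f1).toEquiv]
  have syl : IsSylowIn 2 f.range (GG F) := isSylowIn_of_norm pf fG fun y hy hyn k hk => by
    have cj : ∀ g ∈ normalizer (f.range : Set (GL Ix F)), Commute g (H 1 (-1)) := fun g hg => by
      obtain ⟨s, hs⟩ := (hg _).1 ⟨Tw.tz, rfl⟩
      obtain rfl | rfl := Tw.central (s := s) fun t => f1 (by
        obtain ⟨t', ht⟩ := (inv_mem hg _).1 ⟨t, rfl⟩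
        rw [map_mul, map_mul, hs, show f t = g * f t' * g⁻¹ by rw [ht]; group, conj_mul, conj_mul, ← map_mul,
          ← map_mul, Tw.z_comm])
      · exact (Tw.z_ne (f1 (conj_eq_one_iff.1 (hs.symm.trans (map_one f)) |>.trans (map_one f).symm))).elim
      · rw [← j1]; exact f2 ▸ mul_inv_eq_iff_eq_mul.1 hs.symm
    have hU : zpowers y ≤ normalizer (f.range : Set (GL Ix F)) := zpowers_le.2 hyn
    have pU : IsPGroup 2 ↥(zpowers y ⊔ f.range) := (IsPGroup.of_card_dvd_pow (n := k) (by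
      rw [Nat.card_zpowers]; exact orderOf_dvd_of_pow_eq_one hk)).to_sup_of_normal_right' pf hU
    have l : zpowers y ⊔ f.range ≤ ψ₂.range ⊔ (ψ₁.comp toGL).range := fun g hg => by
      refine cent_le h2 ((closure_le _).2 ?_) ?_ (mem_sup_left (S := ψ₂.range) ⟨_, b3 (by simp)⟩) (sup_le (zpowers_le.2 hy) fG hg)
        (cj g (sup_le hU le_normalizer hg))
      · rintro _ (rfl | ⟨r, hr, t, rfl⟩ | ⟨l, m, rfl⟩)
        · obtain ⟨s, hs⟩ := exists_sl (g := gl (0 : F) 1 (-1) 0 (by simp)) (by ext; simp [gl_coe])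
          exact mem_sup_right ⟨s, by rw [MonoidHom.comp_apply, hs, a3]⟩
        · obtain ⟨s, hs⟩ := exists_sl (g := gl (1 : F) t 0 1 (by simp)) (by ext; simp [gl_coe])
          exact mem_sup_right ⟨s, by rw [MonoidHom.comp_apply, hs, a1, List.mem_singleton.1 hr]⟩
        · exact mem_sup_left ⟨dg (l ^ 2 * m) (l * m)⁻¹, by rw [dg, b2]; congr 1 <;> ext <;> simp <;> field_simp⟩
      · rintro _ ⟨t, rfl⟩; exact mem_sup_left ⟨_, b1 t (by simp)⟩
    obtain ⟨i, hi⟩ := pU.exists_card_eq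
    have := (card_dvd_of_le l).trans cd
    rw [hi, Nat.prime_two.pow_dvd_iff_le_factorization (by simp [Nat.card_pos.ne']),
      Nat.factorization_mul Nat.card_pos.ne' Nat.card_pos.ne', Finsupp.add_apply, h5] at this
    rw [eq_of_le_of_card_ge (le_sup_right : f.range ≤ zpowers y ⊔ f.range) (by
      rw [hi, cf]; exact Nat.pow_le_pow_right two_pos (by omega))]
    exact mem_sup_left (mem_zpowers y)
  obtain ⟨S, hS⟩ := syl.exists_sylow'
  exact ⟨n, ⟨(P.equiv S).trans ((MulEquiv.subgroupCongr hS).trans ((subgroupOfEquivOfLe fG).trans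
    (MonoidHom.ofInjective f1).symm))⟩⟩

end Cfsg.Lib.G2
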